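import Cfsg.Agent.Lib.H62.Q8Group
import Cfsg.Agent.Lib.H2.Fusion
import Cfsg.Agent.Lib.H38.Basic

/-!
# Fusion in groups with quaternion Sylow 2-subgroups of order 8
-/

set_option autoImplicit false

namespace H5.Q8T1

open Subgroup hiding mem_normalizer_iff'
open H38.Basic H62.Q8Group

universe u

theorem q6' : ∀ x s : QuaternionGroup 2, s * x * s⁻¹ = x ∨ s * x * s⁻¹ = x⁻¹ := by decide

variable {G : Type u} [Group G] [Finite G]

section

variable {S : Subgroup G} (e : S ≃* QuaternionGroup 2)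

include e

omit [Finite G] in
theorem conj_in {x s : G} (hx : x ∈ S) (hs : s ∈ S) : s * x * s⁻¹ = x ∨ s * x * s⁻¹ = x⁻¹ := by
  rcases q6' (e ⟨x, hx⟩) (e ⟨s, hs⟩) with h | h
  · left
    rw [← map_inv, ← map_mul, ← map_mul] at h
    exact congrArg Subtype.val (e.injective h)
  · right
    rw [← map_inv, ← map_mul, ← map_mul, ← map_inv] at h
    exact congrArg Subtype.val (e.injective h)

omit [Finite G] in
theorem exists_inv {x : G} (hx : x ∈ S) : ∃ s ∈ S, s * x * s⁻¹ = x⁻¹ := by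
  obtain ⟨s, hs⟩ := q4 (e ⟨x, hx⟩)
  refine ⟨(e.symm s : S), (e.symm s).2, ?_⟩
  have h1 : e (e.symm s * ⟨x, hx⟩ * (e.symm s)⁻¹) = e (⟨x, hx⟩⁻¹) := by
    rw [map_mul, map_mul, map_inv, map_inv, e.apply_symm_apply]
    exact hs
  exact congrArg Subtype.val (e.injective h1)

omit [Finite G] in
theorem four {x y w : G} (hx : x ∈ S) (hy : y ∈ S) (hw : w ∈ S) (hx2 : x ^ 2 ≠ 1) (hy2 : y ^ 2 ≠ 1)
    (hw2 : w ^ 2 ≠ 1) :
    (y = x ∨ y = x⁻¹) ∨ (w = x ∨ w = x⁻¹) ∨ (w = y ∨ w = y⁻¹) ∨ (w = x * y ∨ w = (x * y)⁻¹) := by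
  have hne : ∀ {a : G} (ha : a ∈ S), a ^ 2 ≠ 1 → (e ⟨a, ha⟩) ^ 2 ≠ 1 := by
    intro a ha h1 h2
    apply h1
    rw [← map_pow, e.map_eq_one_iff] at h2
    exact congrArg Subtype.val h2
  have h := q5 (e ⟨x, hx⟩) (e ⟨y, hy⟩) (e ⟨w, hw⟩) (hne hx hx2) (hne hy hy2) (hne hw hw2)
  rw [← map_mul, ← map_inv, ← map_inv, ← map_inv] at h
  simp only [e.injective.eq_iff, Subtype.ext_iff, Subgroup.coe_mul, Subgroup.coe_inv] at h
  exact h

end

/-- Frobenius: fusion in groups with quaternion Sylow 2-subgroups of order 8. -/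
theorem fusion (S : Sylow 2 G) (he : Nonempty ((S : Subgroup G) ≃* QuaternionGroup 2)) :
    Cfsg.HasNormalPComplement 2 G ∨ Conj4 G := by
  have : Fact (Nat.Prime 2) := ⟨Nat.prime_two⟩
  have hQ8 := hasQ8_of S he
  obtain ⟨e⟩ := he
  by_cases hctrl : ∀ x ∈ (S : Subgroup G), ∀ g : G, g * x * g⁻¹ ∈ (S : Subgroup G) →
      ∃ h ∈ (S : Subgroup G), h * x * h⁻¹ = g * x * g⁻¹
  · exact Or.inl (H2.Fusion.hasNPC_of_self_control S hctrl)
  right
  push Not at hctrl
  obtain ⟨x, hx, g, hb, hne⟩ := hctrl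
  have hxne : g * x * g⁻¹ ≠ x := by
    have := hne 1 (one_mem _)
    intro h
    apply this
    rw [h]; group
  have hxne' : g * x * g⁻¹ ≠ x⁻¹ := by
    obtain ⟨s, hs, hs'⟩ := exists_inv e hx
    have := hne s hs
    rwa [hs', ne_comm] at this
  have hx2 : x ^ 2 ≠ 1 := by
    intro h2
    apply hxne
    rcases eq_or_ne x 1 with h1 | h1
    · rw [h1]; group
    · have h3 : g * x * g⁻¹ ≠ 1 := by
        rw [Ne, conj_eq_one_iff]; exact h1
      refine hQ8.unique S.2 hb hx ?_ h2 h3 h1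
      rw [conj_pow, h2]; group
  set b := g * x * g⁻¹ with hbdef
  have hconj2 : ∀ {a : G} (h : G), a ^ 2 ≠ 1 → (h * a * h⁻¹) ^ 2 ≠ 1 := by
    intro a h ha
    rw [conj_pow, Ne, conj_eq_one_iff]; exact ha
  have hb2 : b ^ 2 ≠ 1 := hconj2 g hx2
  have hord : ∀ {a : G}, a ∈ (S : Subgroup G) → a ^ 2 ≠ 1 → orderOf a = 4 := by
    intro a ha ha2
    have h4 : a ^ 4 = 1 := hQ8.pow_four S.2 ha
    exact orderOf_eq_prime_pow (p := 2) (n := 1) (by simpa using ha2) (by simpa using h4)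
  -- both `S` and its conjugate normalize `⟨b⟩`
  set H := Subgroup.normalizer ((Subgroup.zpowers b : Subgroup G) : Set G) with hH
  have hmemH : ∀ s : G, s * b * s⁻¹ = b ∨ s * b * s⁻¹ = b⁻¹ → s ∈ H := by
    intro s hs
    rw [hH, H38.Basic.mem_normalizer_iff', MonoidHom.map_zpowers]
    change Subgroup.zpowers (s * b * s⁻¹) = _
    rcases hs with h | h
    · rw [h]
    · rw [h, Subgroup.zpowers_inv]
  have hSH : (S : Subgroup G) ≤ H := fun s hs => hmemH s (conj_in e hb hs)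
  have hSgH : (S : Subgroup G).map (MulAut.conj g).toMonoidHom ≤ H := by
    rintro _ ⟨s, hs, rfl⟩
    apply hmemH
    change g * s * g⁻¹ * b * (g * s * g⁻¹)⁻¹ = b ∨ g * s * g⁻¹ * b * (g * s * g⁻¹)⁻¹ = b⁻¹
    have h1 : g * s * g⁻¹ * b * (g * s * g⁻¹)⁻¹ = g * (s * x * s⁻¹) * g⁻¹ := by
      rw [hbdef]; group
    rw [h1]
    rcases conj_in e hx hs with h | h
    · left; rw [h]
    · right; rw [h, hbdef]; group
  have hS1 : IsSyl 2 (S : Subgroup G) H := (isSyl_sylow S).of_le hSH le_top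
  have hS2 : IsSyl 2 ((S : Subgroup G).map (MulAut.conj g).toMonoidHom) H := by
    refine IsSyl.of_le (K := ⊤) ?_ hSgH le_top
    have := (isSyl_sylow S).conj_mem (g := g) (Subgroup.mem_top g)
    exact this
  obtain ⟨n, hn, hnS⟩ := hS2.exists_conj_eq hS1
  rw [conj_conj] at hnS
  have hm0 : n * g ∈ Subgroup.normalizer ((S : Subgroup G) : Set G) :=
    H38.Basic.mem_normalizer_iff'.2 hnS
  have hnb : n * b * n⁻¹ = b ∨ n * b * n⁻¹ = b⁻¹ := by
    have h1 : n * b * n⁻¹ ∈ Subgroup.zpowers b :=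
      (Subgroup.mem_normalizer_iff.1 hn b).1 (Subgroup.mem_zpowers b)
    have h2 : n * b * n⁻¹ ∈ (S : Subgroup G) := (Subgroup.zpowers_le.2 hb) h1
    obtain ⟨i, hi⟩ := h1
    have hc : b * (n * b * n⁻¹) = (n * b * n⁻¹) * b := by
      rw [← hi]; exact (Commute.self_zpow b i).eq
    have h4 := hQ8.pow_four S.2 hb
    rcases hQ8.powers S.2 hb h2 hb2 hc with h | h | h | h
    · exfalso
      apply hb2
      rw [conj_eq_one_iff] at h
      rw [h, one_pow]
    · left; exact h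
    · exfalso
      have h5 : (n * b * n⁻¹) ^ 2 = 1 := by
        rw [h, ← pow_mul]; exact h4
      exact hconj2 n hb2 h5
    · right
      rw [h]
      exact eq_inv_of_mul_eq_one_left (by rw [← pow_succ]; exact h4)
  -- replace `n * g` by an element of odd order
  obtain ⟨m2, m, hmm, hcomm, ⟨j, hj⟩, hmodd, hm2z, hmz⟩ : ∃ m2 m : G, m2 * m = n * g ∧
      Commute m2 m ∧ (∃ j, orderOf m2 = 2 ^ j) ∧ Odd (orderOf m) ∧ m2 ∈ Subgroup.zpowers (n * g) ∧
      m ∈ Subgroup.zpowers (n * g) := by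
    set w := n * g with hw
    obtain ⟨k, r, hr, hkr⟩ := Nat.exists_eq_two_pow_mul_odd (n := orderOf w) (orderOf_pos w).ne'
    have hcop : Nat.Coprime (2 ^ k) r := Nat.Coprime.pow_left k (Nat.coprime_two_left.mpr hr)
    obtain ⟨a, ha⟩ : ∃ a : ℤ × ℤ, a.1 * (2 ^ k : ℕ) + a.2 * r = 1 := by
      have := Nat.isCoprime_iff_coprime.mpr hcop
      obtain ⟨a, b, hab⟩ := this
      exact ⟨(a, b), hab⟩
    refine ⟨w ^ (a.2 * r), w ^ (a.1 * (2 ^ k : ℕ)), ?_, ?_, ?_, ?_, zpow_mem (mem_zpowers w) _,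
      zpow_mem (mem_zpowers w) _⟩
    · rw [← zpow_add, add_comm, ha, zpow_one]
    · exact (Commute.refl w).zpow_zpow _ _
    · have h1 : (w ^ (a.2 * r)) ^ (2 ^ k) = 1 := by
        rw [← zpow_natCast, ← zpow_mul]
        have : a.2 * (r : ℤ) * ((2 ^ k : ℕ) : ℤ) = (orderOf w : ℤ) * a.2 := by
          rw [hkr]; push_cast; ring
        rw [this, zpow_mul, zpow_natCast, pow_orderOf_eq_one, one_zpow]
      obtain ⟨j, -, hj⟩ := (Nat.dvd_prime_pow Nat.prime_two).1 (orderOf_dvd_of_pow_eq_one h1)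
      exact ⟨j, hj⟩
    · have h1 : (w ^ (a.1 * (2 ^ k : ℕ))) ^ r = 1 := by
        rw [← zpow_natCast, ← zpow_mul]
        have : a.1 * ((2 ^ k : ℕ) : ℤ) * (r : ℤ) = (orderOf w : ℤ) * a.1 := by
          rw [hkr]; push_cast; ring
        rw [this, zpow_mul, zpow_natCast, pow_orderOf_eq_one, one_zpow]
      exact Odd.of_dvd_nat hr (orderOf_dvd_of_pow_eq_one h1)
  have hm2S : m2 ∈ (S : Subgroup G) := by
    have h1 : IsPGroup 2 (Subgroup.zpowers m2) := isPGroup_zpowers ⟨j, hj⟩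
    have h2 := h1.inf_normalizer_sylow S
    have h3 : m2 ∈ Subgroup.zpowers m2 ⊓ Subgroup.normalizer ((S : Subgroup G) : Set G) :=
      ⟨mem_zpowers m2, (Subgroup.zpowers_le.2 hm0) hm2z⟩
    have h4 : m2 ∈ Subgroup.zpowers m2 ⊓ (S : Subgroup G) := by rw [← h2]; exact h3
    exact h4.2
  have hmS : m ∈ Subgroup.normalizer ((S : Subgroup G) : Set G) := (Subgroup.zpowers_le.2 hm0) hmz
  have hminv : ∀ a : G, a ∈ (S : Subgroup G) → m * a * m⁻¹ ∈ (S : Subgroup G) := fun a ha =>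
    (Subgroup.mem_normalizer_iff.1 hmS a).1 ha
  have hmx : m * x * m⁻¹ = b ∨ m * x * m⁻¹ = b⁻¹ := by
    have h1 : m * x * m⁻¹ = m2⁻¹ * (n * b * n⁻¹) * m2⁻¹⁻¹ := by
      have h2 : m = m2⁻¹ * (n * g) := by rw [← hmm]; group
      rw [h2, hbdef]; group
    rw [h1]
    have h3 : ∀ c : G, m2⁻¹ * c⁻¹ * m2⁻¹⁻¹ = (m2⁻¹ * c * m2⁻¹⁻¹)⁻¹ := fun c => by group
    rcases hnb with h | h <;> rcases conj_in e hb (inv_mem hm2S) with h' | h'
    · left; rw [h, h']
    · right; rw [h, h']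
    · right; rw [h, h3, h']
    · left; rw [h, h3, h', inv_inv]
  set b' := m * x * m⁻¹ with hb'
  have hb'S : b' ∈ (S : Subgroup G) := hminv x hx
  have hb'2 : b' ^ 2 ≠ 1 := hconj2 m hx2
  have hb'x : b' ≠ x := by
    rcases hmx with h | h
    · rw [h]; exact hxne
    · rw [h]; intro h1; apply hxne'; rw [← h1, inv_inv]
  have hb'x' : b' ≠ x⁻¹ := by
    rcases hmx with h | h
    · rw [h]; exact hxne'
    · rw [h]; intro h1; exact hxne (inv_injective h1)
  set c := m * b' * m⁻¹ with hc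
  have hcS : c ∈ (S : Subgroup G) := hminv b' hb'S
  have hc2 : c ^ 2 ≠ 1 := hconj2 m hb'2
  have hcb : c ≠ b' := by
    intro h
    apply hb'x
    have h1 : m * b' * m⁻¹ = m * x * m⁻¹ := h
    exact mul_left_cancel (mul_right_cancel h1)
  have hcb' : c ≠ b'⁻¹ := by
    intro h
    apply hb'x'
    have h1 : m * b' * m⁻¹ = m * x⁻¹ * m⁻¹ := by
      rw [← hc, h, hb']; group
    exact mul_left_cancel (mul_right_cancel h1)
  -- `m ^ 2` does not normalize `⟨x⟩`
  have hcx : ¬ (c = x ∨ c = x⁻¹) := by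
    intro h
    have h2 : m ^ 2 * x * (m ^ 2)⁻¹ = x ∨ m ^ 2 * x * (m ^ 2)⁻¹ = x⁻¹ := by
      have : m ^ 2 * x * (m ^ 2)⁻¹ = c := by rw [hc, hb', pow_two]; group
      rwa [this]
    have h3 : ∀ i : ℕ, (m ^ 2) ^ i * x * ((m ^ 2) ^ i)⁻¹ = x ∨
        (m ^ 2) ^ i * x * ((m ^ 2) ^ i)⁻¹ = x⁻¹ := by
      intro i
      induction i with
      | zero => left; group
      | succ i ih =>
        have h4 : (m ^ 2) ^ (i + 1) * x * ((m ^ 2) ^ (i + 1))⁻¹ =
            m ^ 2 * ((m ^ 2) ^ i * x * ((m ^ 2) ^ i)⁻¹) * (m ^ 2)⁻¹ := by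
          rw [pow_succ']; group
        have h5 : m ^ 2 * x⁻¹ * (m ^ 2)⁻¹ = (m ^ 2 * x * (m ^ 2)⁻¹)⁻¹ := by group
        rw [h4]
        rcases ih with h | h <;> rcases h2 with h' | h'
        · left; rw [h, h']
        · right; rw [h, h']
        · right; rw [h, h5, h']
        · left; rw [h, h5, h', inv_inv]
    obtain ⟨k, hk⟩ := hmodd
    have h6 : (m ^ 2) ^ k = m⁻¹ := by
      rw [← pow_mul]
      apply eq_inv_of_mul_eq_one_left
      rw [← pow_succ, ← hk, pow_orderOf_eq_one]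
    have h7 := h3 k
    rw [h6] at h7
    rcases h7 with h | h
    · apply hb'x
      rw [hb']
      nth_rewrite 1 [← h]
      group
    · apply hb'x'
      rw [hb']
      have : x = m * x⁻¹ * m⁻¹ := by rw [← h]; group
      nth_rewrite 2 [this]
      group
  have hcxb : c = x * b' ∨ c = (x * b')⁻¹ := by
    rcases four e hx hb'S hcS hx2 hb'2 hc2 with h | h | h | h
    · exact absurd h (by rintro (h | h); exacts [hb'x h, hb'x' h])
    · exact absurd h hcx
    · exact absurd h (by rintro (h | h); exacts [hcb h, hcb' h])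
    · exact h
  have hinv : ∀ a ∈ (S : Subgroup G), IsConj a a⁻¹ := by
    intro a ha
    obtain ⟨s, -, hs⟩ := exists_inv e ha
    exact isConj_iff.mpr ⟨s, hs⟩
  have hxb' : IsConj x b' := isConj_iff.mpr ⟨m, rfl⟩
  have hxc : IsConj x c := hxb'.trans (isConj_iff.mpr ⟨m, rfl⟩)
  have hall : ∀ d ∈ (S : Subgroup G), d ^ 2 ≠ 1 → IsConj x d := by
    intro d hd hd2
    rcases four e hx hb'S hd hx2 hb'2 hd2 with h | h | h | h
    · exact absurd h (by rintro (h | h); exacts [hb'x h, hb'x' h])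
    · rcases h with rfl | rfl
      · exact IsConj.refl _
      · exact hinv x hx
    · rcases h with rfl | rfl
      · exact hxb'
      · exact hxb'.trans (hinv b' hb'S)
    · have hdc : d = c ∨ d = c⁻¹ := by
        rcases hcxb with h1 | h1 <;> rcases h with h2 | h2
        · left; rw [h1, h2]
        · right; rw [h1, h2]
        · right; rw [h1, h2, inv_inv]
        · left; rw [h1, h2]
      rcases hdc with rfl | rfl
      · exact hxc
      · exact hxc.trans (hinv c hcS)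
  have hgen : ∀ y : G, orderOf y = 4 → IsConj x y := by
    intro y hy
    obtain ⟨P, hP⟩ := (isPGroup_zpowers (x := y) ⟨2, by rw [hy]; norm_num⟩).exists_le_sylow
    obtain ⟨h, hh⟩ := MulAction.exists_smul_eq G P S
    have hyS : h * y * h⁻¹ ∈ (S : Subgroup G) := by
      rw [← hh]
      exact ⟨y, hP (mem_zpowers y), rfl⟩
    have h1 := hall _ hyS (hconj2 h (pow_two_ne hy))
    exact h1.trans (isConj_iff.mpr ⟨h⁻¹, by group⟩)
  intro y w hy hw
  exact (hgen y hy).symm.trans (hgen w hw)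

/-- The dichotomy for groups with quaternion Sylow 2-subgroups of order 8. -/
theorem t1 (S : Sylow 2 G) (he : Nonempty ((S : Subgroup G) ≃* QuaternionGroup 2)) :
    (∃ N : Subgroup G, N.Normal ∧ Odd (Nat.card N) ∧ N.index = 8) ∨ Conj4 G := by
  have : Fact (Nat.Prime 2) := ⟨Nat.prime_two⟩
  rcases fusion S he with h | h
  · left
    obtain ⟨e⟩ := he
    have hc := H2.NPC.isComplement'_residual_of_hasNPC h S
    have hcard : Nat.card (S : Subgroup G) = 8 := by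
      rw [Nat.card_congr e.toEquiv, q7]
    refine ⟨_, inferInstance, ?_, by rw [hc.symm.index_eq_card, hcard]⟩
    have h1 : Nat.card (Cfsg.pResidual 2 G) = (S : Subgroup G).index := hc.index_eq_card.symm
    rw [h1, ← Nat.not_even_iff_odd, even_iff_two_dvd]
    exact S.not_dvd_index
  · exact Or.inr h

end H5.Q8T1
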