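import Mathlib.GroupTheory.GroupAction.Quotient
import Mathlib.GroupTheory.Index
import Mathlib.GroupTheory.PGroup
import Mathlib.Tactic

set_option autoImplicit false

/-! Counting with group actions. -/

namespace H5.ActionCount

/-- If all orbits of a finite set have length divisible by `m` then `m` divides the cardinality. -/
theorem dvd_card_of_forall_orbit {N X : Type*} [Group N] [MulAction N X] [Finite X] (m : ℕ)
    (h : ∀ x : X, m ∣ Nat.card (MulAction.orbit N x)) : m ∣ Nat.card X := by
  classical
  haveI : Fintype X := Fintype.ofFinite X
  rw [Nat.card_congr (MulAction.selfEquivSigmaOrbits N X), Nat.card_sigma]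
  exact Finset.dvd_sum fun ω _ => h _

theorem dvd_card_of_forall_stabilizer_index {N X : Type*} [Group N] [MulAction N X] [Finite X]
    (m : ℕ) (h : ∀ x : X, m ∣ (MulAction.stabilizer N x).index) : m ∣ Nat.card X := by
  apply dvd_card_of_forall_orbit (N := N)
  intro x
  have := h x
  rwa [MulAction.index_stabilizer] at this

end H5.ActionCount
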