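import Mathlib
import Cfsg.Agent.Lib.H5.PBh

/-!
# Products of two involutions and sections of elements of an abelian Sylow subgroup
-/

set_option autoImplicit false
set_option linter.unusedSectionVars false
set_option linter.unusedVariables false
set_option linter.style.haveILetI false
open Cfsg H20.Loc H20.GA H20.Blk H20.DefGrp H20.Defect H20.Orth H20.Height H20.NPC H20.PPart
  H20.NormQ H20.Col H20.Col2 H5.PBb H5.PBc H5.PBd H5.PBe H5.PBf
open scoped ComplexConjugate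

universe u

namespace H5.PBi

section basic
variable {G : Type u} [Group G] {p : ℕ}

theorem isPPart_inv {z y : G} (h : IsPPart p z y) : IsPPart p z⁻¹ y⁻¹ := by
  obtain ⟨v, h1, h2, ⟨k, hk⟩, h4⟩ := h
  refine ⟨v⁻¹, ?_, (h2.inv_left).inv_right, ⟨k, by rw [orderOf_inv, hk]⟩, by rwa [orderOf_inv]⟩
  rw [← h1, mul_inv_rev]
  exact (h2.inv_left.inv_right).eq

/-- an involution inverting `z` inverts its `p`-part -/
theorem inverts_ppart [Finite G] (hp : p.Prime) {z y t : G} (h : IsPPart p z y) (ht : t * z * t⁻¹ = z⁻¹) :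
    t * y * t⁻¹ = y⁻¹ := by
  have h1 := H19.Second.isPPart_conj (h := t) h
  rw [ht] at h1
  exact H19.Second.isPPart_unique hp h1 (isPPart_inv h)

theorem inv_prod {t1 t2 : G} (h1 : t1 * t1 = 1) (h2 : t2 * t2 = 1) : t1 * (t1 * t2) * t1⁻¹ = (t1 * t2)⁻¹ := by
  rw [← mul_assoc, h1, one_mul, mul_inv_rev, inv_eq_of_mul_eq_one_left h2]

theorem inv_prod' {t1 t2 : G} (h1 : t1 * t1 = 1) (h2 : t2 * t2 = 1) : t2 * (t1 * t2) * t2⁻¹ = (t1 * t2)⁻¹ := by
  have e1 : t1⁻¹ = t1 := inv_eq_of_mul_eq_one_left h1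
  rw [mul_inv_rev, inv_eq_of_mul_eq_one_left h2, e1, mul_assoc, mul_assoc, h2, mul_one]

theorem eq_one_of_sq (hp : p.Prime) (h2 : p ≠ 2) {y : G} (hy : ∃ k : ℕ, orderOf y = p ^ k) (h : y * y = 1) :
    y = 1 := by
  obtain ⟨k, hk⟩ := hy
  have h3 : orderOf y ∣ 2 := orderOf_dvd_of_pow_eq_one (by rw [pow_two]; exact h)
  rw [hk] at h3
  rcases Nat.eq_zero_or_pos k with h0 | h0
  · rw [h0, pow_zero] at hk
    exact orderOf_eq_one_iff.1 hk
  · exfalso
    exact h2 ((Nat.prime_dvd_prime_iff_eq hp Nat.prime_two).1 ((dvd_pow_self p h0.ne').trans h3))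

end basic

variable {G : Type u} [Group G] [Fintype G] {p : ℕ} [Fact p.Prime] {P : Sylow p G}

theorem sq_eq_one_of_inverts (h : Hyp P) (hodd : Odd (Nat.card (WP P))) {y g : G} (hy : y ∈ P) (hy1 : y ≠ 1)
    (hg : g * y * g⁻¹ = y⁻¹) : y * y = 1 := by
  obtain ⟨w, hw, h1⟩ := (fusion h ⟨y, hy⟩ ⟨y⁻¹, inv_mem hy⟩).1 (isConj_iff.2 ⟨g, hg⟩)
  have h2 : w ((⟨y, hy⟩ : (P : Subgroup G))) = (⟨y, hy⟩ : (P : Subgroup G))⁻¹ := h1
  have h3 : (w * w) (⟨y, hy⟩ : (P : Subgroup G)) = ⟨y, hy⟩ := by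
    rw [MulAut.mul_apply, h2, map_inv, h2, inv_inv]
  have h4 : w * w = 1 := by
    by_contra hne
    have := fpf h _ ((WP P).mul_mem hw hw) hne _ h3
    exact hy1 (congrArg Subtype.val this)
  have h5 : w = 1 := by
    have h6 : (⟨w, hw⟩ : WP P) ^ 2 = 1 := by rw [pow_two]; exact Subtype.ext h4
    have h7 : (⟨w, hw⟩ : WP P) ^ Nat.card (WP P) = 1 := pow_card_eq_one'
    have h8 : Nat.gcd 2 (Nat.card (WP P)) = 1 := by
      exact Nat.coprime_two_left.2 hodd
    have h10 : orderOf (⟨w, hw⟩ : WP P) = 1 := by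
      apply Nat.dvd_one.1
      rw [← h8]
      exact Nat.dvd_gcd (orderOf_dvd_of_pow_eq_one h6) (orderOf_dvd_of_pow_eq_one h7)
    exact congrArg Subtype.val (orderOf_eq_one_iff.1 h10)
  rw [h5, MulAut.one_apply] at h2
  have h6 : y = y⁻¹ := congrArg Subtype.val h2
  calc y * y = y⁻¹ * y := by rw [← h6]
    _ = 1 := inv_mul_cancel y

theorem noprod_odd (h : Hyp P) (hodd : Odd (Nat.card (WP P))) (hp2 : p ≠ 2) {t1 t2 y y' : G}
    (h1 : t1 * t1 = 1) (h2 : t2 * t2 = 1) (hy : y ∈ P) (hy1 : y ≠ 1) (hz : IsPPart p (t1 * t2) y')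
    (hc : IsConj y y') : False := by
  obtain ⟨c, hc⟩ := isConj_iff.1 hc
  have h3 := inverts_ppart Fact.out hz (inv_prod h1 h2)
  have h4 : (c⁻¹ * t1 * c) * y * (c⁻¹ * t1 * c)⁻¹ = y⁻¹ := by
    have e1 : y = c⁻¹ * y' * c := by rw [← hc]; group
    have e2 : (c⁻¹ * t1 * c) * y * (c⁻¹ * t1 * c)⁻¹ = c⁻¹ * (t1 * y' * t1⁻¹) * c := by rw [e1]; group
    rw [e2, h3, e1]; group
  have h5 := sq_eq_one_of_inverts h hodd hy hy1 h4
  exact hy1 (eq_one_of_sq Fact.out hp2 (pel_of_mem hy) h5)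

theorem exists_tau (h : Hyp P) {z : G} (hz : z ∈ P) (hz1 : z ≠ 1) :
    ∃ τ : Cen z →* (P : Subgroup G), ∀ x : Cen z, (x : G) ∈ P → τ x = 1 → x = 1 := by
  have hP := le_cen h hz
  have hB : Subgroup.normalizer (((P.subtype hP : Sylow p (Cen z)) : Subgroup (Cen z)) : Set (Cen z)) ≤
      Subgroup.centralizer (((P.subtype hP : Sylow p (Cen z)) : Subgroup (Cen z)) : Set (Cen z)) := by
    intro g hg
    have hgN : (g : G) ∈ Subgroup.normalizer (P : Set G) := by
      refine Subgroup.mem_normalizer_iff.2 ?_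
      intro x
      constructor
      · intro hx
        have h1 := (Subgroup.mem_normalizer_iff.1 hg ⟨x, hP hx⟩).1 hx
        exact h1
      · intro hx
        have hx' : x ∈ Cen z := by
          have h2 := (Cen z).mul_mem ((Cen z).mul_mem (inv_mem g.2) (hP hx)) g.2
          have h3 : (g : G)⁻¹ * ((g : G) * x * (g : G)⁻¹) * g = x := by group
          rwa [h3] at h2
        exact (Subgroup.mem_normalizer_iff.1 hg ⟨x, hx'⟩).2 hx
    have h1 := h.frob z hz hz1 g hgN (Subgroup.mem_centralizer_singleton_iff.1 g.2)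
    rw [Subgroup.mem_centralizer_iff]
    intro x hx
    exact Subtype.ext (Subgroup.mem_centralizer_iff.1 h1 _ hx)
  set τ := MonoidHom.transferSylow (P.subtype hP) hB with hτ
  have hcompl : Subgroup.IsComplement' τ.ker ((P.subtype hP : Sylow p (Cen z)) : Subgroup (Cen z)) :=
    MonoidHom.ker_transferSylow_isComplement' (P.subtype hP) hB
  let ι : ((P.subtype hP : Sylow p (Cen z)) : Subgroup (Cen z)) →* (P : Subgroup G) :=
    { toFun := fun x => ⟨((x : Cen z) : G), x.2⟩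
      map_one' := rfl
      map_mul' := fun _ _ => rfl }
  refine ⟨ι.comp τ, fun x hx h1 => ?_⟩
  have h2 : τ x = 1 := by
    have h3 : ((τ x : Cen z) : G) = 1 := congrArg Subtype.val h1
    exact Subtype.ext (Subtype.ext h3)
  have h3 : x ∈ τ.ker ⊓ ((P.subtype hP : Sylow p (Cen z)) : Subgroup (Cen z)) := ⟨h2, hx⟩
  rw [hcompl.disjoint.eq_bot] at h3
  exact h3

/-- products of two conjugates of an involution `t` do not lie in sections of other elements of `P` -/
theorem noprod_two (hp2 : p = 2) (h : Hyp P) (hW : Nat.card (WP P) = 3) {t t1 t2 y y' : G}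
    (ht : t ∈ P) (ho : t * t = 1) (h1 : IsConj t t1) (h2 : IsConj t t2) (hy : y ∈ P) (hy1 : y ≠ 1)
    (hyt : ¬ IsConj t y) (hz : IsPPart p (t1 * t2) y') (hc : IsConj y y') : False := by
  -- first reduce to `y' = y`
  obtain ⟨c, hc⟩ := isConj_iff.1 hc
  suffices key : ∀ s1 s2 : G, IsConj t s1 → IsConj t s2 → IsPPart p (s1 * s2) y → False by
    refine key (c⁻¹ * t1 * c) (c⁻¹ * t2 * c) (h1.trans (isConj_iff.2 ⟨c⁻¹, by group⟩))
      (h2.trans (isConj_iff.2 ⟨c⁻¹, by group⟩)) ?_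
    have h3 := H19.Second.isPPart_conj (h := c⁻¹) hz
    have e1 : c⁻¹ * y' * c⁻¹⁻¹ = y := by rw [← hc]; group
    have e2 : c⁻¹ * (t1 * t2) * c⁻¹⁻¹ = (c⁻¹ * t1 * c) * (c⁻¹ * t2 * c) := by group
    rwa [e1, e2] at h3
  clear hz hc c h1 h2 t1 t2
  intro t1 t2 h1 h2 hz
  have hsq : ∀ s : G, IsConj t s → s * s = 1 := by
    intro s hs
    obtain ⟨c, hc⟩ := isConj_iff.1 hs
    rw [← hc]
    have : c * t * c⁻¹ * (c * t * c⁻¹) = c * (t * t) * c⁻¹ := by group
    rw [this, ho]; group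
  have hodd : Odd (Nat.card (WP P)) := by rw [hW]; decide
  have e1 := inverts_ppart Fact.out hz (inv_prod (hsq t1 h1) (hsq t2 h2))
  have e2 := inverts_ppart Fact.out hz (inv_prod' (hsq t1 h1) (hsq t2 h2))
  have hyy := sq_eq_one_of_inverts h hodd hy hy1 e1
  have hyi : y⁻¹ = y := inv_eq_of_mul_eq_one_left hyy
  rw [hyi] at e1 e2
  have m1 : t1 ∈ Cen y := Subgroup.mem_centralizer_singleton_iff.2 (mul_inv_eq_iff_eq_mul.1 e1)
  have m2 : t2 ∈ Cen y := Subgroup.mem_centralizer_singleton_iff.2 (mul_inv_eq_iff_eq_mul.1 e2)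
  obtain ⟨τ, hτ⟩ := exists_tau h hy hy1
  have hP := le_cen h hy
  have hcomm := (frame h).comm
  -- conjugates in `C(y)`
  have hconj : ∀ s : Cen y, IsConj t (s : G) → ∃ s' : Cen y, (s' : G) ∈ P ∧ IsConj t (s' : G) ∧ τ s = τ s' := by
    intro s hs
    have h3 : IsPGroup p (Subgroup.zpowers s) := by
      apply IsPGroup.of_card (n := 1)
      rw [Nat.card_zpowers]
      have h4 : s * s = 1 := Subtype.ext (hsq _ hs)
      have h5 : s ≠ 1 := by
        rintro rfl
        have h6 : t = 1 := isConj_one_left.1 hs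
        exact hyt (by
          exfalso
          rw [h6] at hs
          -- `t = 1` contradicts the product having `p`-part `y ≠ 1`
          have h7 : t1 = 1 := by
            have := h1; rw [h6] at this; exact (isConj_one_right.1 this).symm ▸ rfl
          have h8 : t2 = 1 := by
            have := h2; rw [h6] at this; exact (isConj_one_right.1 this).symm ▸ rfl
          rw [h7, h8, one_mul] at hz
          have h9 := H19.Second.isPPart_unique (Fact.out : p.Prime) hz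
            (isPPart_one Fact.out (by rw [orderOf_one]; exact (Fact.out : p.Prime).one_lt.ne' ∘ Nat.dvd_one.1))
          exact hy1 h9)
      rw [pow_one, hp2]
      exact orderOf_eq_prime (by rw [pow_two]; exact h4) h5
    obtain ⟨Q, hQ⟩ := h3.exists_le_sylow
    obtain ⟨g, hg⟩ := MulAction.exists_smul_eq (Cen y) Q (P.subtype hP)
    have h4 : g * s * g⁻¹ ∈ ((P.subtype hP : Sylow p (Cen y)) : Subgroup (Cen y)) := by
      rw [← hg]
      exact Subgroup.smul_mem_pointwise_smul _ _ _ (hQ (Subgroup.mem_zpowers s))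
    refine ⟨g * s * g⁻¹, h4, hs.trans (isConj_iff.2 ⟨(g : G), rfl⟩), ?_⟩
    rw [map_mul, map_mul, map_inv, hcomm (τ g), mul_inv_cancel_right]
  obtain ⟨s1, hs1, hc1, hτ1⟩ := hconj ⟨t1, m1⟩ h1
  obtain ⟨s2, hs2, hc2, hτ2⟩ := hconj ⟨t2, m2⟩ h2
  -- the product
  obtain ⟨v, hv1, hv2, hv3, hv4⟩ := hz
  have mv : v ∈ Cen y := Subgroup.mem_centralizer_singleton_iff.2 hv2.symm.eq
  have my : y ∈ Cen y := Subgroup.mem_centralizer_singleton_iff.2 rfl
  have hτv : τ ⟨v, mv⟩ = 1 := by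
    have h3 : orderOf (τ ⟨v, mv⟩) ∣ orderOf v := by
      have := orderOf_map_dvd τ ⟨v, mv⟩
      rw [Subgroup.orderOf_mk v mv] at this
      exact this
    obtain ⟨k, hk⟩ := IsPGroup.iff_orderOf.1 P.2 (τ ⟨v, mv⟩)
    rcases Nat.eq_zero_or_pos k with h0 | h0
    · rw [h0, pow_zero] at hk
      exact orderOf_eq_one_iff.1 hk
    · exfalso
      apply hv4
      refine dvd_trans ?_ h3
      rw [hk]
      exact dvd_pow_self p h0.ne'
  have hprod : (⟨t1, m1⟩ : Cen y) * ⟨t2, m2⟩ = ⟨y, my⟩ * ⟨v, mv⟩ := Subtype.ext hv1.symm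
  have hτ3 : τ (s1 * s2 * ⟨y, my⟩⁻¹) = 1 := by
    have h3 := congrArg τ hprod
    rw [map_mul, map_mul, hτ1, hτ2, hτv, mul_one] at h3
    rw [map_mul, map_mul, h3, map_inv, mul_inv_cancel]
  have h3 := hτ _ (P.mul_mem (P.mul_mem hs1 hs2) (P.inv_mem hy)) hτ3
  have h4 : (s1 : G) * s2 = y := by
    have := congrArg Subtype.val (mul_inv_eq_one.1 h3)
    exact this
  obtain ⟨w1, hw1, e1'⟩ := (fusion h ⟨t, ht⟩ ⟨s1, hs1⟩).1 hc1
  obtain ⟨w2, hw2, e2'⟩ := (fusion h ⟨t, ht⟩ ⟨s2, hs2⟩).1 hc2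
  by_cases hww : w1 = w2
  · rw [hww, e2'] at e1'
    have h5 : (s2 : G) = s1 := congrArg (fun q : (P : Subgroup G) => (q : G)) e1'
    rw [h5, hsq _ hc1] at h4
    exact hy1 h4.symm
  · -- `s₂ = u s₁` with `u` of order three
    set u := w2 * w1⁻¹ with hu
    have hum : u ∈ WP P := (WP P).mul_mem hw2 ((WP P).inv_mem hw1)
    have hu1 : u ≠ 1 := fun h' => hww (mul_inv_eq_one.1 h').symm
    have hu3 : u ^ 3 = 1 := by
      have : (⟨u, hum⟩ : WP P) ^ Nat.card (WP P) = 1 := pow_card_eq_one'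
      rw [hW] at this
      exact congrArg Subtype.val this
    set a : (P : Subgroup G) := ⟨s1, hs1⟩ with ha
    have hua : u a = ⟨s2, hs2⟩ := by
      have h5 : w1⁻¹ a = ⟨t, ht⟩ := by rw [← e1', ← MulAut.mul_apply, inv_mul_cancel, MulAut.one_apply]
      rw [hu, MulAut.mul_apply, h5, e2']
    have hfix : u (a * u a * u (u a)) = a * u a * u (u a) := by
      rw [map_mul, map_mul]
      have h5 : u (u (u a)) = a := by
        rw [← MulAut.mul_apply, ← MulAut.mul_apply, ← pow_three', hu3, MulAut.one_apply]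
      rw [h5, hcomm _ a, mul_assoc]
    have h5 := fpf h u hum hu1 _ hfix
    have h6 : a * u a = (u (u a))⁻¹ := mul_eq_one_iff_eq_inv.1 h5
    have h7 : (u (u a))⁻¹ = u (u a) := by
      have h8 : a⁻¹ = a := by
        apply Subtype.ext
        exact inv_eq_of_mul_eq_one_left (hsq _ hc1)
      rw [← map_inv, ← map_inv, h8]
    apply hyt
    have h8 : (⟨y, hy⟩ : (P : Subgroup G)) = (u * u * w1) ⟨t, ht⟩ := by
      rw [MulAut.mul_apply, MulAut.mul_apply, e1', ← h7, ← h6, hua]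
      exact Subtype.ext h4.symm
    exact (fusion h ⟨t, ht⟩ ⟨y, hy⟩).2 ⟨u * u * w1,
      (WP P).mul_mem ((WP P).mul_mem hum hum) hw1, h8.symm⟩

end H5.PBi
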