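import Mathlib
import Cfsg.Agent.Lib.H5.PBi

/-!
# The automizer of order three: involutions and degrees
-/

set_option autoImplicit false
set_option linter.unusedSectionVars false
set_option linter.unusedVariables false
set_option linter.style.haveILetI false
open Cfsg H20.Loc H20.GA H20.Blk H20.DefGrp H20.Defect H20.Orth H20.Height H20.NPC H20.PPart
  H20.NormQ H20.Col H20.Col2 H5.PBb H5.PBc H5.PBd H5.PBe H5.PBf H5.PBh H5.PBi
open scoped ComplexConjugate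

universe u

namespace H5.PBj

section gen
variable {G : Type u} [Group G] [Fintype G]

/-- an element in no proper normal subgroup is in the kernel of no nontrivial irreducible character -/
theorem eq_one_of_ker {t : G} (ht : ∀ K : Subgroup G, K.Normal → t ∈ K → K = ⊤) (χ : IrrCharacter G)
    (h : (χ : G → ℂ) t = (χ : G → ℂ) 1) : χ = one G := by
  have h1 : H18.CharQuot.kerSub (χ : G → ℂ) (irr_char χ) = ⊤ :=
    ht _ (H18.CharQuot.kerSub_normal (irr_char χ)) ((H18.CharQuot.mem_kerSub (irr_char χ)).2 h)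
  have h2 : ∀ g, (χ : G → ℂ) g = (χ : G → ℂ) 1 := fun g =>
    (H18.CharQuot.mem_kerSub (irr_char χ)).1 (h1 ▸ Subgroup.mem_top g)
  by_contra hne
  have h3 := H18.CharOrtho.inner_irr_ne χ.2 (one G).2 (fun h' => hne (Subtype.ext h'))
  have h4 : (χ : G → ℂ) = ((χ : G → ℂ) 1) • ((one G : IrrCharacter G) : G → ℂ) := by
    funext g
    rw [Pi.smul_apply, smul_eq_mul]
    show (χ : G → ℂ) g = (χ : G → ℂ) 1 * 1
    rw [mul_one, h2 g]
  rw [h4, H18.CharOrtho.inner_smul_left, H18.CharOrtho.inner_irr_self (one G).2, mul_one] at h3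
  exact H18.CharBasic.irr_one_ne_zero χ.2 h3

/-- the counting function of products of two conjugates of `t` paired with a function not meeting it -/
theorem pair_zero [Fintype (IrrCharacter G)] (t : G) (Θ : G → ℂ)
    (h : ∀ g, Θ g ≠ 0 → ∀ t1 t2 : G, IsConj t t1 → IsConj t t2 → t1 * t2 = g → False) :
    ∑ χ : IrrCharacter G, classInner Θ (χ : G → ℂ) * ((χ : G → ℂ) t ^ 2 / (χ : G → ℂ) 1) = 0 := by
  have h1 := H5.GLd.pairing' t Θ
  rw [Finset.sum_eq_zero (s := Finset.univ) (f := fun g : G => Θ g *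
    (Nat.card {p : G × G // IsConj t p.1 ∧ IsConj t p.2 ∧ p.1 * p.2 = g} : ℂ))] at h1
  · refine (mul_eq_zero.1 h1).resolve_left (pow_ne_zero 2 ?_)
    haveI : Nonempty {x : G // IsConj t x} := ⟨⟨t, IsConj.refl t⟩⟩
    exact_mod_cast (Nat.card_pos (α := {x : G // IsConj t x})).ne'
  · intro g _
    by_cases hg : Θ g = 0
    · rw [hg, zero_mul]
    · haveI : IsEmpty {p : G × G // IsConj t p.1 ∧ IsConj t p.2 ∧ p.1 * p.2 = g} :=
        ⟨fun q => h g hg q.1.1 q.1.2 q.2.1 q.2.2.1 q.2.2.2⟩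
      rw [Nat.card_of_isEmpty, Nat.cast_zero, mul_zero]

end gen

variable {G : Type u} [Group G] [Fintype G]
variable {M : Ideal AlgInt} {p : ℕ}
variable {A : Subgroup G} {W : Subgroup (MulAut A)}

section out
variable [Fintype A] [Fintype W] [Fintype (IrrCharacter G)] {n : ℕ} {rep : Fin n → (A →* ℂˣ)} {i₀ : Fin n}
  {μ : Fin n → IrrCharacter G} {δ d : ℤ} {a : IrrCharacter G → ℤ}

/-- the three nonexceptional characters -/
theorem exists_three (hM : IsPModular p M) (hF : Frame p A W)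
    (hfp : ∀ w ∈ W, w ≠ 1 → ∀ x : A, w x = x → x = 1)
    (hrep : Reps W n rep) (hn : 2 ≤ n) (hW : Nat.card W = 3) (hO : Out M p A W n rep i₀ μ δ 0 a) :
    ∃ χ2 χ3 : IrrCharacter G, χ2 ≠ one G ∧ χ3 ≠ one G ∧ χ2 ≠ χ3 ∧ (a χ2 = 1 ∨ a χ2 = -1) ∧
      (a χ3 = 1 ∨ a χ3 = -1) ∧
      ∀ χ : IrrCharacter G, (χ ∈ principalBlock M G ∧ ∀ i, μ i ≠ χ) ↔ χ = one G ∨ χ = χ2 ∨ χ = χ3 := by
  classical
  haveI := pm_isPrime hM
  have hnorm := hO.norm hM hF hfp hrep
  have hone := hO.a_one hM hF hrep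
  have h1mem : one G ∈ principalBlock M G ∧ ∀ i, μ i ≠ one G :=
    ⟨H20.Klein.one_mem, fun i => hO.mu_ne_one hM hF hrep hn i⟩
  rw [hW] at hnorm
  set S : Finset (IrrCharacter G) := Finset.univ.filter fun χ => χ ∈ principalBlock M G ∧ ∀ i, μ i ≠ χ with hS
  have hmS : ∀ χ, χ ∈ S ↔ (χ ∈ principalBlock M G ∧ ∀ i, μ i ≠ χ) := fun χ => by simp [hS]
  rw [← Finset.sum_filter, ← hS] at hnorm
  have hδ2 : δ ^ 2 = 1 := by rcases hO.hδ with h | h <;> rw [h] <;> norm_num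
  have h3 : ∑ χ ∈ S, a χ ^ 2 = 3 := by
    push_cast at hnorm
    linear_combination hnorm - hδ2
  rw [← Finset.add_sum_erase S _ ((hmS _).2 h1mem), hone] at h3
  have h4 : ∑ χ ∈ S.erase (one G), a χ ^ 2 = 2 := by linarith
  have hpos : ∀ χ ∈ S.erase (one G), (1 : ℤ) ≤ a χ ^ 2 := by
    intro χ hχ
    have h5 := (hmS χ).1 (Finset.mem_of_mem_erase hχ)
    have h6 := (hO.aX χ h5.1 h5.2).1
    have : 0 < a χ ^ 2 := by positivity
    omega
  have hle : ∀ χ ∈ S.erase (one G), a χ = 1 ∨ a χ = -1 := by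
    intro χ hχ
    have h5 : a χ ^ 2 ≤ 2 := by
      rw [← h4]
      exact Finset.single_le_sum (f := fun χ => a χ ^ 2) (fun _ _ => sq_nonneg _) hχ
    have h6 := hpos χ hχ
    have h7 : a χ ≤ 1 := by nlinarith
    have h8 : -1 ≤ a χ := by nlinarith
    have h9 : a χ ≠ 0 := by rintro h'; rw [h'] at h6; norm_num at h6
    omega
  have hcard : (S.erase (one G)).card = 2 := by
    have h5 : ∑ χ ∈ S.erase (one G), a χ ^ 2 = ∑ χ ∈ S.erase (one G), (1 : ℤ) :=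
      Finset.sum_congr rfl fun χ hχ => by rcases hle χ hχ with h | h <;> rw [h] <;> norm_num
    rw [h5, Finset.sum_const, nsmul_eq_mul, mul_one] at h4
    exact_mod_cast h4
  obtain ⟨χ2, χ3, h23, hE⟩ := Finset.card_eq_two.1 hcard
  have m2 : χ2 ∈ S.erase (one G) := by rw [hE]; simp
  have m3 : χ3 ∈ S.erase (one G) := by rw [hE]; simp
  refine ⟨χ2, χ3, Finset.ne_of_mem_erase m2, Finset.ne_of_mem_erase m3, h23, hle _ m2, hle _ m3, ?_⟩
  intro χ
  rw [← hmS]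
  constructor
  · intro h
    by_cases h' : χ = one G
    · exact Or.inl h'
    · have : χ ∈ S.erase (one G) := Finset.mem_erase.2 ⟨h', h⟩
      rw [hE, Finset.mem_insert, Finset.mem_singleton] at this
      exact Or.inr this
  · rintro (h | h | h)
    · rw [h]; exact (hmS _).2 h1mem
    · rw [h]; exact Finset.mem_of_mem_erase m2
    · rw [h]; exact Finset.mem_of_mem_erase m3

/-- sums over the principal block -/
theorem sum_three {χ2 χ3 : IrrCharacter G} (h2 : χ2 ≠ one G) (h3 : χ3 ≠ one G) (h23 : χ2 ≠ χ3)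
    (hX : ∀ χ : IrrCharacter G, (χ ∈ principalBlock M G ∧ ∀ i, μ i ≠ χ) ↔ χ = one G ∨ χ = χ2 ∨ χ = χ3)
    (hO : Out M p A W n rep i₀ μ δ 0 a) (f : IrrCharacter G → ℂ)
    (h0 : ∀ χ, χ ∉ principalBlock M G → f χ = 0) :
    ∑ χ : IrrCharacter G, f χ = f (one G) + f χ2 + f χ3 + ∑ i, f (μ i) := by
  classical
  rw [sum_split (M := M) f hO.inj hO.mem h0]
  congr 1
  rw [← Finset.sum_filter]
  have hE : (Finset.univ.filter fun χ : IrrCharacter G => χ ∈ principalBlock M G ∧ ∀ i, μ i ≠ χ) =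
      {one G, χ2, χ3} := by
    ext χ
    rw [Finset.mem_filter, hX χ]
    simp
  rw [hE, Finset.sum_insert, Finset.sum_pair h23, add_assoc]
  simp only [Finset.mem_insert, Finset.mem_singleton, not_or]
  exact ⟨Ne.symm h2, Ne.symm h3⟩

theorem rel_three (hM : IsPModular p M) (hF : Frame p A W) {χ2 χ3 : IrrCharacter G} (h2 : χ2 ≠ one G)
    (h3 : χ3 ≠ one G) (h23 : χ2 ≠ χ3) (hrep : Reps W n rep)
    (hX : ∀ χ : IrrCharacter G, (χ ∈ principalBlock M G ∧ ∀ i, μ i ≠ χ) ↔ χ = one G ∨ χ = χ2 ∨ χ = χ3)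
    (hO : Out M p A W n rep i₀ μ δ 0 a) {z : G} (hz : ∀ ψ φ, D p A W ψ φ z = 0) (i : Fin n) :
    1 + a χ2 * (χ2 : G → ℂ) z + a χ3 * (χ3 : G → ℂ) z - δ * (μ i : G → ℂ) z = 0 := by
  classical
  have h := hO.relX hM hF hz i
  rw [← Finset.sum_filter] at h
  have hE : (Finset.univ.filter fun χ : IrrCharacter G => χ ∈ principalBlock M G ∧ ∀ i, μ i ≠ χ) =
      {one G, χ2, χ3} := by
    ext χ
    rw [Finset.mem_filter, hX χ]
    simp
  rw [hE, Finset.sum_insert, Finset.sum_pair h23, hO.a_one hM hF hrep] at h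
  · have h1 : ((one G : IrrCharacter G) : G → ℂ) z = 1 := rfl
    rw [h1] at h
    push_cast at h
    linear_combination h
  · simp only [Finset.mem_insert, Finset.mem_singleton, not_or]
    exact ⟨Ne.symm h2, Ne.symm h3⟩

/-- conversion of the complex relations to the final statement -/
theorem finish {t : G} (ht : ∀ K : Subgroup G, K.Normal → t ∈ K → K = ⊤) {χ2 χ3 : IrrCharacter G}
    (h2 : χ2 ≠ one G) (η : IrrCharacter G) {a2 a3 δ : ℤ}
    (ha2 : a2 = 1 ∨ a2 = -1) (ha3 : a3 = 1 ∨ a3 = -1) (hδ : δ = 1 ∨ δ = -1)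
    (h1 : 1 + a2 * (χ2 : G → ℂ) 1 + a3 * (χ3 : G → ℂ) 1 - δ * (η : G → ℂ) 1 = 0)
    {s2 s3 s4 : ℤ} (hs : 1 + s2 + s3 + s4 = 0) (hs2 : s2 = a2 * (χ2 : G → ℂ) t)
    (hq : (1 : ℂ) + s2 ^ 2 / (a2 * (χ2 : G → ℂ) 1) + s3 ^ 2 / (a3 * (χ3 : G → ℂ) 1) +
      s4 ^ 2 / (-δ * (η : G → ℂ) 1) = 0) :
    (if a2 = -1 then 1 else 0) + (if a3 = -1 then 1 else 0) + (if δ = 1 then 1 else 0) = 2 ∧
      IsSquare (charDegree (η : G → ℂ) * (charDegree (χ2 : G → ℂ) * charDegree (χ3 : G → ℂ))) := by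
  obtain ⟨p2, e2⟩ := exists_deg χ2
  obtain ⟨p3, e3⟩ := exists_deg χ3
  obtain ⟨p4, e4⟩ := exists_deg η
  set x2 := charDegree (χ2 : G → ℂ)
  set x3 := charDegree (χ3 : G → ℂ)
  set y := charDegree (η : G → ℂ)
  rw [e2, e3, e4] at h1 hq
  have h1' : 1 + a2 * (x2 : ℤ) + a3 * x3 - δ * y = 0 := by
    have : ((1 + a2 * (x2 : ℤ) + a3 * x3 - δ * y : ℤ) : ℂ) = 0 := by push_cast; exact h1
    exact_mod_cast this
  have n2 : (a2 : ℚ) ≠ 0 := by rcases ha2 with h | h <;> rw [h] <;> norm_num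
  have n3 : (a3 : ℚ) ≠ 0 := by rcases ha3 with h | h <;> rw [h] <;> norm_num
  have nδ : (-δ : ℚ) ≠ 0 := by rcases hδ with h | h <;> rw [h] <;> norm_num
  have m2 : (x2 : ℚ) ≠ 0 := by exact_mod_cast p2.ne'
  have m3 : (x3 : ℚ) ≠ 0 := by exact_mod_cast p3.ne'
  have m4 : (y : ℚ) ≠ 0 := by exact_mod_cast p4.ne'
  refine alg2 p2 p3 p4 ha2 ha3 hδ h1' ?_
  have h5 := alg (b2 := a2 * x2) (b3 := a3 * x3) (b4 := -δ * y) (t2 := s2) (t3 := s3) (t4 := s4)
    (mul_ne_zero n2 m2) (mul_ne_zero n3 m3) (mul_ne_zero nδ m4) (by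
      have : ((1 + a2 * (x2 : ℤ) + a3 * x3 - δ * y : ℤ) : ℚ) = 0 := by rw [h1']; simp
      push_cast at this
      linear_combination this) (by exact_mod_cast hs) (by
      have h6 : (((1 : ℚ) + (s2 : ℚ) ^ 2 / (a2 * x2) + (s3 : ℚ) ^ 2 / (a3 * x3) +
        (s4 : ℚ) ^ 2 / (-δ * y) : ℚ) : ℂ) = 0 := by
        push_cast
        exact hq
      exact_mod_cast h6) (by
      intro heq
      apply h2
      apply eq_one_of_ker ht
      rw [e2]
      have h6 : (s2 : ℤ) = a2 * x2 := by exact_mod_cast heq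
      have h7 : (a2 : ℂ) ≠ 0 := by rcases ha2 with h | h <;> rw [h] <;> norm_num
      rw [h6] at hs2
      push_cast at hs2
      exact (mul_left_cancel₀ h7 hs2).symm)
  have e : (((a2 * x2) * (a3 * x3) * (-δ * y) : ℤ) : ℚ) = (a2 * x2 : ℚ) * (a3 * x3) * (-δ * y) := by
    push_cast; ring
  rw [e]
  exact h5

end out

end H5.PBj
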