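import Mathlib
import Cfsg.Agent.Lib.H5.PBj

/-!
# The automizer of order three: the final count
-/

set_option autoImplicit false
set_option linter.unusedSectionVars false
set_option linter.unusedVariables false
set_option linter.style.haveILetI false
open Cfsg H20.Loc H20.GA H20.Blk H20.DefGrp H20.Defect H20.Orth H20.Height H20.NPC H20.PPart
  H20.NormQ H20.Col H20.Col2 H5.PBb H5.PBc H5.PBd H5.PBe H5.PBf H5.PBh H5.PBi H5.PBj
open scoped ComplexConjugate

universe u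

namespace H5.PBk

variable {G : Type u} [Group G] [Fintype G]
variable {M : Ideal AlgInt} {p : ℕ} [Fact p.Prime] {P : Sylow p G}
variable [Fintype (P : Subgroup G)] [Fintype (WP P)] [Fintype (IrrCharacter G)] {n : ℕ}
  {rep : Fin n → ((P : Subgroup G) →* ℂˣ)} {i₀ : Fin n}
  {μ : Fin n → IrrCharacter G} {δ : ℤ} {a : IrrCharacter G → ℤ}

/-- the conclusion about signs and squares -/
def Concl (χ2 χ3 η : IrrCharacter G) (a : IrrCharacter G → ℤ) (δ : ℤ) : Prop :=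
    (if a χ2 = -1 then 1 else 0) + (if a χ3 = -1 then 1 else 0) + (if δ = 1 then 1 else 0) = 2 ∧
      IsSquare (charDegree (η : G → ℂ) * (charDegree (χ2 : G → ℂ) * charDegree (χ3 : G → ℂ)))

theorem sq_of_order {t : G} (ht : orderOf t = 2) : t * t = 1 := by
  rw [← pow_two, ← ht, pow_orderOf_eq_one]

theorem sq_of_conj {t s : G} (ht : t * t = 1) (h : IsConj t s) : s * s = 1 := by
  obtain ⟨c, hc⟩ := isConj_iff.1 h
  rw [← hc]
  have : c * t * c⁻¹ * (c * t * c⁻¹) = c * (t * t) * c⁻¹ := by group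
  rw [this, ht]; group

theorem odd_case (hM : IsPModular p M) (hH : Hyp P) (hp2 : p ≠ 2) (hrep : Reps (WP P) n rep)
    (hW : Nat.card (WP P) = 3) (hO : Out M p (P : Subgroup G) (WP P) n rep i₀ μ δ 0 a)
    {χ2 χ3 : IrrCharacter G} (h2 : χ2 ≠ one G)
    (h3 : χ3 ≠ one G) (h23 : χ2 ≠ χ3) (ha2 : a χ2 = 1 ∨ a χ2 = -1) (ha3 : a χ3 = 1 ∨ a χ3 = -1)
    (hX : ∀ χ : IrrCharacter G, (χ ∈ principalBlock M G ∧ ∀ i, μ i ≠ χ) ↔ χ = one G ∨ χ = χ2 ∨ χ = χ3)
    {t : G} (ho : orderOf t = 2) (ht : ∀ K : Subgroup G, K.Normal → t ∈ K → K = ⊤) (i : Fin n) :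
    Concl χ2 χ3 (μ i) a δ := by
  classical
  have hF := frame hH
  have hreg1 : ∀ ψ φ, D p (P : Subgroup G) (WP P) ψ φ 1 = 0 := fun ψ φ => D_one hM ψ φ
  have hodd : ¬ p ∣ orderOf t := by
    rw [ho]; intro h
    exact hp2 ((Nat.prime_dvd_prime_iff_eq (pm_prime hM) Nat.prime_two).1 h)
  have hregt : ∀ ψ φ, D p (P : Subgroup G) (WP P) ψ φ t = 0 := fun ψ φ => D_regular hM ψ φ hodd
  have htt := sq_of_order ho
  have hWodd : Odd (Nat.card (WP P)) := by rw [hW]; decide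
  have hpair := pair_zero t (D p (P : Subgroup G) (WP P) 1 (rep i₀)) (by
    intro g hg t1 t2 h1 h2 h12
    apply hg
    obtain ⟨g', hg'⟩ := H19.Second.exists_isPPart (pm_prime hM) g
    refine D_zero hM _ _ hg' ?_
    intro x hx hc
    rw [← h12] at hg'
    exact noprod_odd hH hWodd hp2 (sq_of_conj htt h1) (sq_of_conj htt h2) x.2
      (fun h => hx (Subtype.ext h)) hg' hc)
  rw [sum_three h2 h3 h23 hX hO _ (fun χ hχ => by rw [D_inB hM hF _ _ χ hχ, zero_mul])] at hpair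
  have e1 := rel_three hM hF h2 h3 h23 hrep hX hO hreg1 i
  have e2 := rel_three hM hF h2 h3 h23 hrep hX hO hregt i
  obtain ⟨k2, hk2⟩ := H62.Q8Flat.gen_int_of_invol (H18.CharOrtho.isGen_of_isIrr χ2.2) htt
  obtain ⟨k3, hk3⟩ := H62.Q8Flat.gen_int_of_invol (H18.CharOrtho.isGen_of_isIrr χ3.2) htt
  obtain ⟨k4, hk4⟩ := H62.Q8Flat.gen_int_of_invol (H18.CharOrtho.isGen_of_isIrr (μ i).2) htt
  have hμ1 : ∀ j, (μ j : G → ℂ) 1 = (μ i : G → ℂ) 1 := fun j => hO.regY hreg1 j i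
  have hμt : ∀ j, (μ j : G → ℂ) t = (μ i : G → ℂ) t := fun j => hO.regY hregt j i
  have hδ2 : (δ : ℂ) ^ 2 = 1 := by rcases hO.hδ with h | h <;> rw [h] <;> norm_num
  have ha22 : (a χ2 : ℂ) ^ 2 = 1 := by rcases ha2 with h | h <;> rw [h] <;> norm_num
  have ha32 : (a χ3 : ℂ) ^ 2 = 1 := by rcases ha3 with h | h <;> rw [h] <;> norm_num
  have hsum : ∑ j, classInner (D p (P : Subgroup G) (WP P) 1 (rep i₀)) (μ j : G → ℂ) *
      ((μ j : G → ℂ) t ^ 2 / (μ j : G → ℂ) 1) = -δ * (k4 ^ 2 / (μ i : G → ℂ) 1) := by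
    rw [Finset.sum_eq_single i₀]
    · rw [hO.coef, hO.aY i₀, if_pos rfl, hμ1, hμt, hk4]; push_cast; ring
    · intro j _ hj
      rw [hO.coef, hO.aY j, if_neg hj]; push_cast; ring
    · intro h; exact absurd (Finset.mem_univ _) h
  rw [hsum, hO.coef, hO.coef, hO.coef, hO.a_one hM hF hrep, hk2, hk3] at hpair
  have h1t : ((one G : IrrCharacter G) : G → ℂ) t = 1 := rfl
  have h11 : ((one G : IrrCharacter G) : G → ℂ) 1 = 1 := rfl
  rw [h1t, h11] at hpair
  rw [hk2, hk3, hk4] at e2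
  have n2 := H18.CharBasic.irr_one_ne_zero χ2.2
  have n3 := H18.CharBasic.irr_one_ne_zero χ3.2
  have n4 := H18.CharBasic.irr_one_ne_zero (μ i).2
  have na2 : (a χ2 : ℂ) ≠ 0 := by intro h; rw [h] at ha22; norm_num at ha22
  have na3 : (a χ3 : ℂ) ≠ 0 := by intro h; rw [h] at ha32; norm_num at ha32
  have nδ : (δ : ℂ) ≠ 0 := by intro h; rw [h] at hδ2; norm_num at hδ2
  refine finish ht h2 (μ i) ha2 ha3 hO.hδ e1 (s2 := a χ2 * k2) (s3 := a χ3 * k3) (s4 := -δ * k4) ?_ ?_ ?_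
  · have : ((1 + a χ2 * k2 + a χ3 * k3 + -δ * k4 : ℤ) : ℂ) = 0 := by
      push_cast; linear_combination e2
    exact_mod_cast this
  · rw [hk2]; push_cast; ring
  · push_cast
    have f2 : ((a χ2 : ℂ) * k2) ^ 2 / (a χ2 * (χ2 : G → ℂ) 1) = a χ2 * (k2 ^ 2 / (χ2 : G → ℂ) 1) := by
      field_simp
    have f3 : ((a χ3 : ℂ) * k3) ^ 2 / (a χ3 * (χ3 : G → ℂ) 1) = a χ3 * (k3 ^ 2 / (χ3 : G → ℂ) 1) := by
      field_simp
    have f4 : (-(δ : ℂ) * k4) ^ 2 / (-δ * (μ i : G → ℂ) 1) = -δ * (k4 ^ 2 / (μ i : G → ℂ) 1) := by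
      field_simp
    rw [f2, f3, f4]
    push_cast at hpair
    linear_combination hpair

/-- the square of an orbit sum at an involution -/
theorem Th_sq (hH : Hyp P) (hW : Nat.card (WP P) = 3) (ψ : (P : Subgroup G) →* ℂˣ) {t : (P : Subgroup G)}
    (ht : t * t = 1) (ht1 : t ≠ 1) : Th (WP P) ψ t ^ 2 = 3 + 2 * Th (WP P) ψ t := by
  classical
  have hcomm := (frame hH).comm
  obtain ⟨u, hu1⟩ : ∃ u : WP P, u ≠ 1 := by
    by_contra! hno
    haveI : Subsingleton (WP P) := ⟨fun a b => by rw [hno a, hno b]⟩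
    have : Nat.card (WP P) = 1 := Nat.card_unique
    omega
  have hu3 : u ^ 3 = 1 := by
    have := pow_card_eq_one' (x := u)
    rwa [hW] at this
  have huo : orderOf u = 3 := orderOf_eq_prime hu3 hu1
  have hu2 : u ^ 2 ≠ 1 := fun h => by
    have := orderOf_dvd_of_pow_eq_one h
    rw [huo] at this
    omega
  have hu21 : u ^ 2 ≠ u := fun h => hu1 (by
    have h' : u * u = u * 1 := by rw [mul_one, ← pow_two, h]
    exact mul_left_cancel h')
  have huniv : (Finset.univ : Finset (WP P)) = {1, u, u ^ 2} := by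
    symm
    apply Finset.eq_univ_of_card
    rw [← Nat.card_eq_fintype_card, hW, Finset.card_insert_of_notMem, Finset.card_pair (Ne.symm hu21)]
    simp only [Finset.mem_insert, Finset.mem_singleton, not_or]
    exact ⟨Ne.symm hu1, Ne.symm hu2⟩
  set b := (u : MulAut (P : Subgroup G)) t with hb
  set c := (u : MulAut (P : Subgroup G)) b with hc
  have hTh : Th (WP P) ψ t = (ψ t : ℂ) + ψ b + ψ c := by
    rw [Th_apply, huniv, Finset.sum_insert, Finset.sum_pair (Ne.symm hu21)]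
    · rw [pow_two]
      show (ψ t : ℂ) + ((ψ b : ℂ) + (ψ c : ℂ)) = _
      ring
    · simp only [Finset.mem_insert, Finset.mem_singleton, not_or]
      exact ⟨Ne.symm hu1, Ne.symm hu2⟩
  have huc : (u : MulAut (P : Subgroup G)) c = t := by
    have h1 : ((u ^ 3 : WP P) : MulAut (P : Subgroup G)) t = t := by rw [hu3]; rfl
    exact h1
  have hprod : t * b * c = 1 := by
    refine fpf hH u u.2 (fun h => hu1 (Subtype.ext h)) _ ?_
    rw [map_mul, map_mul, huc, ← hb, ← hc, hcomm _ t, mul_assoc]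
  have sq : ∀ x : (P : Subgroup G), x * x = 1 → (ψ x : ℂ) * ψ x = 1 := by
    intro x hx
    have h1 : ψ x * ψ x = 1 := by rw [← map_mul, hx, map_one]
    have h2 := congrArg Units.val h1
    rwa [Units.val_mul, Units.val_one] at h2
  have hbb : b * b = 1 := by rw [hb, ← map_mul, ht, map_one]
  have hcc : c * c = 1 := by rw [hc, ← map_mul, hbb, map_one]
  have s1 := sq t ht
  have s2 := sq b hbb
  have s3 := sq c hcc
  have h4 : (ψ t : ℂ) * ψ b * ψ c = 1 := by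
    have h1 : ψ t * ψ b * ψ c = 1 := by rw [← map_mul, ← map_mul, hprod, map_one]
    have h2 := congrArg Units.val h1
    rwa [Units.val_mul, Units.val_mul, Units.val_one] at h2
  rw [hTh]
  have h5 : (ψ t : ℂ) * ψ b = ψ c := by linear_combination (ψ c : ℂ) * h4 - (ψ t * ψ b : ℂ) * s3
  have h6 : (ψ t : ℂ) * ψ c = ψ b := by linear_combination (ψ b : ℂ) * h4 - (ψ t * ψ c : ℂ) * s2
  have h7 : (ψ b : ℂ) * ψ c = ψ t := by linear_combination (ψ t : ℂ) * h4 - (ψ b * ψ c : ℂ) * s1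
  linear_combination s1 + s2 + s3 + 2 * h5 + 2 * h6 + 2 * h7

theorem even_case (hM : IsPModular p M) (hH : Hyp P) (hp2 : p = 2) (hrep : Reps (WP P) n rep) (hn : 2 ≤ n)
    (hW : Nat.card (WP P) = 3) (hO : Out M p (P : Subgroup G) (WP P) n rep i₀ μ δ 0 a)
    {χ2 χ3 : IrrCharacter G} (h2 : χ2 ≠ one G)
    (h3 : χ3 ≠ one G) (h23 : χ2 ≠ χ3) (ha2 : a χ2 = 1 ∨ a χ2 = -1) (ha3 : a χ3 = 1 ∨ a χ3 = -1)
    (hX : ∀ χ : IrrCharacter G, (χ ∈ principalBlock M G ∧ ∀ i, μ i ≠ χ) ↔ χ = one G ∨ χ = χ2 ∨ χ = χ3)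
    {t : G} (ho : orderOf t = 2) (ht : ∀ K : Subgroup G, K.Normal → t ∈ K → K = ⊤) (htP : t ∈ P) (i : Fin n) :
    Concl χ2 χ3 (μ i) a δ := by
  classical
  have hF := frame hH
  have hA := hF.comm
  have hfp := fpf hH
  have hreg1 : ∀ ψ φ, D p (P : Subgroup G) (WP P) ψ φ 1 = 0 := fun ψ φ => D_one hM ψ φ
  have htt := sq_of_order ho
  have ht1 : t ≠ 1 := by rintro rfl; rw [orderOf_one] at ho; omega
  have hcard := hrep.card hA hfp
  rw [hW] at hcard
  set t' : (P : Subgroup G) := ⟨t, htP⟩ with ht'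
  have ht1' : t' ≠ 1 := fun h => ht1 (congrArg Subtype.val h)
  have htt' : t' * t' = 1 := Subtype.ext htt
  -- an element not conjugate to `t`
  obtain ⟨y, hy1, hyt⟩ : ∃ y : (P : Subgroup G), y ≠ 1 ∧ ¬ IsConj t (y : G) := by
    by_contra! hno
    have h4 : Nat.card {x' : (P : Subgroup G) // IsConj (t' : G) (x' : G)} = 3 := by
      have h5 := hF.count t' ht1'
      rw [card_cen hH htP, hW] at h5
      have h6 := card_ne (A := (P : Subgroup G))
      have h7 := mul_right_cancel₀ h6 h5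
      exact_mod_cast h7
    have h5 : Nat.card (P : Subgroup G) ≤ Nat.card (Option {x' : (P : Subgroup G) // IsConj (t' : G) (x' : G)}) := by
      refine Nat.card_le_card_of_surjective
        (fun o : Option {x' : (P : Subgroup G) // IsConj (t' : G) (x' : G)} => o.elim 1 (fun x => x.1)) ?_
      intro x
      by_cases hx : x = 1
      · exact ⟨none, hx.symm⟩
      · exact ⟨some ⟨x, hno x hx⟩, rfl⟩
    rw [Finite.card_option, h4, ← hcard] at h5
    omega
  have hyG1 : (y : G) ≠ 1 := fun h => hy1 (Subtype.ext h)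
  have hNX := hF.nx y hy1
  have hpair := pair_zero t (H5.PBa.sec p (y : G)) (by
    intro g hg t1 t2 h1 h2 h12
    apply hg
    obtain ⟨g', hg'⟩ := H19.Second.exists_isPPart (pm_prime hM) g
    refine H5.PBa.sec_not (pm_prime hM) hg' ?_
    intro hc
    rw [← h12] at hg'
    exact noprod_two hp2 hH hW htP htt h1 h2 y.2 hyG1 hyt hg' hc)
  have hc0 := H5.PBa.cc_ne (p := p) (pm_prime hM) (y : G)
  have hcoef : ∀ χ : IrrCharacter G, classInner (H5.PBa.sec p (y : G)) (χ : G → ℂ) =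
      (if χ ∈ principalBlock M G then conj ((χ : G → ℂ) y) else 0) / H5.PBa.cc p (y : G) := by
    intro χ
    rw [H5.PBa.inner_sec_irr hM hNX χ]
    split_ifs
    · rfl
    · rw [zero_div]
  have hpair2 : ∑ χ : IrrCharacter G, (if χ ∈ principalBlock M G then conj ((χ : G → ℂ) y) else 0) *
      ((χ : G → ℂ) t ^ 2 / (χ : G → ℂ) 1) = 0 := by
    have h4 : (∑ χ : IrrCharacter G, (if χ ∈ principalBlock M G then conj ((χ : G → ℂ) y) else 0) *
      ((χ : G → ℂ) t ^ 2 / (χ : G → ℂ) 1)) / H5.PBa.cc p (y : G) = 0 := by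
      rw [Finset.sum_div]
      refine Eq.trans (Finset.sum_congr rfl fun χ _ => ?_) hpair
      rw [hcoef χ]
      ring
    exact (div_eq_zero_iff.1 h4).resolve_right hc0
  have hcol : ∑ χ : IrrCharacter G, (if χ ∈ principalBlock M G then
      conj ((χ : G → ℂ) y) * (χ : G → ℂ) t else 0) = 0 := by
    rw [H5.PBa.sum_eq hM hNX t]
    rw [H5.PBa.sec_not (pm_prime hM) (H5.PBa.isPPart_self (pm_prime hM) (pel_of_mem htP))
      (fun h => hyt h.symm), mul_zero]
  have hone : one G ∈ principalBlock M G := ((hX _).2 (Or.inl rfl)).1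
  have hm2 := (hX χ2).2 (Or.inr (Or.inl rfl))
  have hm3 := (hX χ3).2 (Or.inr (Or.inr rfl))
  have v2 := (hO.aX χ2 hm2.1 hm2.2).2
  have v3 := (hO.aX χ3 hm3.1 hm3.2).2
  have hδ2 : (δ : ℂ) ^ 2 = 1 := by rcases hO.hδ with h | h <;> rw [h] <;> norm_num
  have ha22 : (a χ2 : ℂ) ^ 2 = 1 := by rcases ha2 with h | h <;> rw [h] <;> norm_num
  have ha32 : (a χ3 : ℂ) ^ 2 = 1 := by rcases ha3 with h | h <;> rw [h] <;> norm_num
  have vμ : ∀ j, ∀ x : (P : Subgroup G), x ≠ 1 → (μ j : G → ℂ) x = δ * Th (WP P) (rep j) x := by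
    intro j x hx
    rw [hO.valY j x hx]; push_cast; ring
  have hμ1 : ∀ j, (μ j : G → ℂ) 1 = (μ i : G → ℂ) 1 := fun j => hO.regY hreg1 j i
  have R0 : ∑ j, conj (Th (WP P) (rep j) y) = -1 := by
    have h4 := congrArg conj (H5.PBg.sum_Th hA hrep hfp hy1)
    rw [map_add, map_sum, map_one, map_zero] at h4
    linear_combination h4
  have R1 : ∑ j, conj (Th (WP P) (rep j) y) * Th (WP P) (rep j) t' = -3 := by
    rw [sum_three h2 h3 h23 hX hO _ (fun χ hχ => if_neg hχ)] at hcol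
    rw [if_pos hone, if_pos hm2.1, if_pos hm3.1] at hcol
    have h4 : ∑ j, (if μ j ∈ principalBlock M G then conj ((μ j : G → ℂ) y) * (μ j : G → ℂ) t else 0) =
        ∑ j, conj (Th (WP P) (rep j) y) * Th (WP P) (rep j) t' := by
      refine Finset.sum_congr rfl fun j _ => ?_
      rw [if_pos (hO.mem j), vμ j y hy1, show (μ j : G → ℂ) t = (μ j : G → ℂ) (t' : G) from rfl,
        vμ j t' ht1', map_mul, conj_int]
      linear_combination (conj (Th (WP P) (rep j) y) * Th (WP P) (rep j) t') * hδ2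
    rw [h4, v2 y hy1, v3 y hy1, show (χ2 : G → ℂ) t = (χ2 : G → ℂ) (t' : G) from rfl,
      show (χ3 : G → ℂ) t = (χ3 : G → ℂ) (t' : G) from rfl, v2 t' ht1', v3 t' ht1', conj_int, conj_int] at hcol
    have h11 : conj (((one G : IrrCharacter G) : G → ℂ) y) * ((one G : IrrCharacter G) : G → ℂ) t = 1 := by
      show conj (1 : ℂ) * 1 = 1
      simp
    rw [h11] at hcol
    linear_combination hcol - ha22 - ha32
  have n2 := H18.CharBasic.irr_one_ne_zero χ2.2
  have n3 := H18.CharBasic.irr_one_ne_zero χ3.2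
  have n4 := H18.CharBasic.irr_one_ne_zero (μ i).2
  have na2 : (a χ2 : ℂ) ≠ 0 := by intro h; rw [h] at ha22; norm_num at ha22
  have na3 : (a χ3 : ℂ) ≠ 0 := by intro h; rw [h] at ha32; norm_num at ha32
  have nδ : (δ : ℂ) ≠ 0 := by intro h; rw [h] at hδ2; norm_num at hδ2
  have hfin : 1 + a χ2 / (χ2 : G → ℂ) 1 + a χ3 / (χ3 : G → ℂ) 1 - 9 * δ / (μ i : G → ℂ) 1 = 0 := by
    rw [sum_three h2 h3 h23 hX hO _ (fun χ hχ => by rw [if_neg hχ, zero_mul])] at hpair2
    rw [if_pos hone, if_pos hm2.1, if_pos hm3.1] at hpair2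
    have h4 : ∑ j, (if μ j ∈ principalBlock M G then conj ((μ j : G → ℂ) y) else 0) *
        ((μ j : G → ℂ) t ^ 2 / (μ j : G → ℂ) 1) = -9 * δ / (μ i : G → ℂ) 1 := by
      have h5 : ∀ j, (if μ j ∈ principalBlock M G then conj ((μ j : G → ℂ) y) else 0) *
        ((μ j : G → ℂ) t ^ 2 / (μ j : G → ℂ) 1) = (δ / (μ i : G → ℂ) 1) *
          (3 * conj (Th (WP P) (rep j) y) + 2 * (conj (Th (WP P) (rep j) y) * Th (WP P) (rep j) t')) := by
        intro j
        rw [if_pos (hO.mem j), vμ j y hy1, show (μ j : G → ℂ) t = (μ j : G → ℂ) (t' : G) from rfl,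
          vμ j t' ht1', map_mul, conj_int, hμ1 j, mul_pow, hδ2, one_mul, Th_sq hH hW (rep j) htt' ht1']
        ring
      rw [Finset.sum_congr rfl fun j _ => h5 j, ← Finset.mul_sum, Finset.sum_add_distrib,
        ← Finset.mul_sum, ← Finset.mul_sum, R0, R1]
      ring
    rw [h4, v2 y hy1, v3 y hy1, show (χ2 : G → ℂ) t = (χ2 : G → ℂ) (t' : G) from rfl,
      show (χ3 : G → ℂ) t = (χ3 : G → ℂ) (t' : G) from rfl, v2 t' ht1', v3 t' ht1', conj_int, conj_int,
      ha22, ha32] at hpair2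
    have h11 : conj (((one G : IrrCharacter G) : G → ℂ) y) * (((one G : IrrCharacter G) : G → ℂ) t ^ 2 /
        ((one G : IrrCharacter G) : G → ℂ) 1) = 1 := by
      show conj (1 : ℂ) * (1 ^ 2 / 1) = 1
      simp
    rw [h11] at hpair2
    linear_combination hpair2
  have e1 := rel_three hM hF h2 h3 h23 hrep hX hO hreg1 i
  refine finish ht h2 (μ i) ha2 ha3 hO.hδ e1 (s2 := 1) (s3 := 1) (s4 := -3) (by norm_num) ?_ ?_
  · rw [show (χ2 : G → ℂ) t = (χ2 : G → ℂ) (t' : G) from rfl, v2 t' ht1', ← pow_two, ha22]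
    simp
  · push_cast
    have f2 : (1 : ℂ) ^ 2 / (a χ2 * (χ2 : G → ℂ) 1) = a χ2 / (χ2 : G → ℂ) 1 := by
      rw [one_pow, div_eq_div_iff (mul_ne_zero na2 n2) n2]
      linear_combination (-(χ2 : G → ℂ) 1) * ha22
    have f3 : (1 : ℂ) ^ 2 / (a χ3 * (χ3 : G → ℂ) 1) = a χ3 / (χ3 : G → ℂ) 1 := by
      rw [one_pow, div_eq_div_iff (mul_ne_zero na3 n3) n3]
      linear_combination (-(χ3 : G → ℂ) 1) * ha32
    have f4 : (-3 : ℂ) ^ 2 / (-δ * (μ i : G → ℂ) 1) = - (9 * δ / (μ i : G → ℂ) 1) := by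
      rw [← neg_div, div_eq_div_iff (mul_ne_zero (neg_ne_zero.2 nδ) n4) n4]
      linear_combination (-9 * (μ i : G → ℂ) 1) * hδ2
    rw [f2, f3, f4]
    linear_combination hfin

end H5.PBk
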