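import Mathlib.GroupTheory.Sylow
import Mathlib.GroupTheory.GroupAction.Quotient
import Mathlib.Tactic
import Cfsg.Agent.Lib.H5.Dihedral
import Cfsg.Agent.Lib.H5.PLocal
import Cfsg.Agent.Lib.H5.ActionCount
import Cfsg.Agent.Lib.H5.IndexTwo

set_option autoImplicit false

/-! 2-groups with an elementary abelian subgroup of order 8; involution counting modulo 4. -/

namespace H5.RankThree

open Subgroup

variable {G : Type*} [Group G] [Finite G]

/-- The centralizer of `x` inside `E`. -/
def centIn (E : Subgroup G) (x : G) : Subgroup G := E ⊓ Subgroup.centralizer ({x} : Set G)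

omit [Finite G] in
theorem mem_centIn {E : Subgroup G} {x e : G} : e ∈ centIn E x ↔ e ∈ E ∧ e * x = x * e := by
  rw [centIn, mem_inf, mem_centralizer_singleton_iff]

/-- Solutions of `x² = 1` outside `E`. -/
abbrev Out (E : Subgroup G) : Type _ := {x : G // x * x = 1 ∧ x ∉ E}

theorem four_dvd_out (E : Subgroup G) (hE : Nat.card E = 8) (hsq : ∀ e ∈ E, e * e = 1) :
    4 ∣ Nat.card (Out E) := by
  classical
  have hinv : ∀ e ∈ E, e⁻¹ = e := fun e he => inv_eq_of_mul_eq_one_left (hsq e he)
  have hcomm : ∀ a ∈ E, ∀ b ∈ E, a * b = b * a := by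
    intro a ha b hb
    have h1 := hinv _ (E.mul_mem ha hb)
    rw [mul_inv_rev, hinv a ha, hinv b hb] at h1
    exact h1.symm
  -- split according to whether the centralizer in E is of order ≤ 2
  let P : Out E → Prop := fun x => 4 ∣ Nat.card (centIn E x.1)
  have hsplit : Nat.card (Out E) = Nat.card {x : Out E // P x} + Nat.card {x : Out E // ¬ P x} := by
    rw [← Nat.card_sum]
    exact Nat.card_congr (Equiv.sumCompl P).symm
  rw [hsplit]
  apply dvd_add
  · -- fibre over the centralizer
    have : Fintype (Out E) := Fintype.ofFinite _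
    have : Fintype (Subgroup G) := Fintype.ofFinite _
    have h1 : Nat.card {x : Out E // P x} =
        ∑ E₀ : Subgroup G, Nat.card {x : {x : Out E // P x} // centIn E x.1.1 = E₀} := by
      rw [← Nat.card_sigma]
      exact Nat.card_congr (Equiv.sigmaFiberEquiv (fun x : {x : Out E // P x} => centIn E x.1.1)).symm
    rw [h1]
    apply Finset.dvd_sum
    intro E₀ _
    by_cases hne : ∃ x : {x : Out E // P x}, centIn E x.1.1 = E₀
    · obtain ⟨x₀, hx₀⟩ := hne
      have h4 : 4 ∣ Nat.card E₀ := by rw [← hx₀]; exact x₀.2
      apply h4.trans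
      -- free action of E₀ by right multiplication
      have hE₀ : E₀ ≤ E := by rw [← hx₀]; exact inf_le_left
      have hcent : ∀ x : G, centIn E x = E₀ → ∀ e ∈ E₀, centIn E (x * e) = E₀ := by
        intro x hx e he
        rw [← hx]
        ext f
        rw [mem_centIn, mem_centIn]
        have heE := hE₀ he
        constructor
        · rintro ⟨hf, h⟩
          refine ⟨hf, ?_⟩
          have h2 := hcomm f hf e heE
          have h3 : f * x * e = x * f * e := by
            calc f * x * e = f * (x * e) := by group
              _ = x * e * f := h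
              _ = x * (e * f) := by group
              _ = x * (f * e) := by rw [h2]
              _ = x * f * e := by group
          exact mul_right_cancel h3
        · rintro ⟨hf, h⟩
          refine ⟨hf, ?_⟩
          have h2 := hcomm f hf e heE
          calc f * (x * e) = f * x * e := by group
            _ = x * f * e := by rw [h]
            _ = x * (f * e) := by group
            _ = x * (e * f) := by rw [h2]
            _ = x * e * f := by group
      have hmem : ∀ x : {x : {x : Out E // P x} // centIn E x.1.1 = E₀}, ∀ e ∈ E₀,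
          (x.1.1.1 * e) * (x.1.1.1 * e) = 1 ∧ x.1.1.1 * e ∉ E := by
        intro x e he
        have heE := hE₀ he
        have hc : e * x.1.1.1 = x.1.1.1 * e := by
          have : e ∈ centIn E x.1.1.1 := by rw [x.2]; exact he
          exact (mem_centIn.mp this).2
        constructor
        · calc (x.1.1.1 * e) * (x.1.1.1 * e) = x.1.1.1 * (e * x.1.1.1) * e := by group
            _ = x.1.1.1 * (x.1.1.1 * e) * e := by rw [hc]
            _ = (x.1.1.1 * x.1.1.1) * (e * e) := by group
            _ = 1 := by rw [x.1.1.2.1, hsq e heE, mul_one]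
        · intro h
          apply x.1.1.2.2
          have := E.mul_mem h (E.inv_mem heE)
          simpa using this
      let act : MulAction E₀ {x : {x : Out E // P x} // centIn E x.1.1 = E₀} :=
        { smul := fun e x => ⟨⟨⟨x.1.1.1 * e, hmem x e e.2⟩, by
            show 4 ∣ Nat.card (centIn E (x.1.1.1 * e))
            rw [hcent _ x.2 e e.2]; exact h4⟩, hcent _ x.2 e e.2⟩
          one_smul := fun x => by
            apply Subtype.ext; apply Subtype.ext; apply Subtype.ext
            show x.1.1.1 * ((1 : E₀) : G) = x.1.1.1
            simp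
          mul_smul := fun e f x => by
            apply Subtype.ext; apply Subtype.ext; apply Subtype.ext
            show x.1.1.1 * ((e * f : E₀) : G) = x.1.1.1 * (f : G) * (e : G)
            have h2 := hcomm e (hE₀ e.2) f (hE₀ f.2)
            rw [coe_mul, h2, mul_assoc] }
      apply H5.ActionCount.dvd_card_of_forall_stabilizer_index (N := E₀)
      intro x
      have hst : MulAction.stabilizer E₀ x = ⊥ := by
        rw [eq_bot_iff]
        intro e he
        rw [MulAction.mem_stabilizer_iff] at he
        have h5 : x.1.1.1 * (e : G) = x.1.1.1 := congrArg (fun y => y.1.1.1) he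
        rw [mem_bot]
        apply Subtype.ext
        exact mul_left_cancel (h5.trans (mul_one _).symm)
      rw [hst, index_bot]
    · have : IsEmpty {x : {x : Out E // P x} // centIn E x.1.1 = E₀} :=
        ⟨fun x => hne ⟨x.1, x.2⟩⟩
      simp
  · -- conjugation by E
    have hconj : ∀ e ∈ E, ∀ x : G, centIn E (e * x * e⁻¹) = centIn E x := by
      intro e he x
      ext f
      rw [mem_centIn, mem_centIn]
      constructor
      · rintro ⟨hf, h⟩
        refine ⟨hf, ?_⟩
        have h2 := hcomm f hf e he
        have h2' : e⁻¹ * f = f * e⁻¹ := by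
          have : e * (e⁻¹ * f) * e = e * (f * e⁻¹) * e := by
            calc e * (e⁻¹ * f) * e = f * e := by group
              _ = e * f := h2
              _ = e * (f * e⁻¹) * e := by group
          exact mul_left_cancel (mul_right_cancel this)
        calc f * x = e⁻¹ * (e * f) * x := by group
          _ = e⁻¹ * (f * e) * x := by rw [h2]
          _ = e⁻¹ * (f * (e * x * e⁻¹)) * e := by group
          _ = e⁻¹ * (e * x * e⁻¹ * f) * e := by rw [h]
          _ = x * (e⁻¹ * f) * e := by group
          _ = x * (f * e⁻¹) * e := by rw [h2']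
          _ = x * f := by group
      · rintro ⟨hf, h⟩
        refine ⟨hf, ?_⟩
        have h2 := hcomm f hf e he
        have h2' : e⁻¹ * f = f * e⁻¹ := by
          have : e * (e⁻¹ * f) * e = e * (f * e⁻¹) * e := by
            calc e * (e⁻¹ * f) * e = f * e := by group
              _ = e * f := h2
              _ = e * (f * e⁻¹) * e := by group
          exact mul_left_cancel (mul_right_cancel this)
        calc f * (e * x * e⁻¹) = (f * e) * x * e⁻¹ := by group
          _ = (e * f) * x * e⁻¹ := by rw [h2]
          _ = e * (f * x) * e⁻¹ := by group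
          _ = e * (x * f) * e⁻¹ := by rw [h]
          _ = e * x * (f * e⁻¹) := by group
          _ = e * x * (e⁻¹ * f) := by rw [h2']
          _ = e * x * e⁻¹ * f := by group
    let act : MulAction E {x : Out E // ¬ P x} :=
      { smul := fun e x => ⟨⟨e * x.1.1 * (e : G)⁻¹, by
            constructor
            · calc (e * x.1.1 * (e : G)⁻¹) * (e * x.1.1 * (e : G)⁻¹) = e * (x.1.1 * x.1.1) * (e : G)⁻¹ := by group
                _ = 1 := by rw [x.1.2.1]; group
            · intro h
              apply x.1.2.2
              have := E.mul_mem (E.mul_mem (E.inv_mem e.2) h) e.2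
              have h2 : (e : G)⁻¹ * (e * x.1.1 * (e : G)⁻¹) * e = x.1.1 := by group
              rwa [h2] at this⟩, by
            show ¬ 4 ∣ Nat.card (centIn E (e * x.1.1 * (e : G)⁻¹))
            rw [hconj e e.2]; exact x.2⟩
        one_smul := fun x => by
          apply Subtype.ext; apply Subtype.ext
          show ((1 : E) : G) * x.1.1 * ((1 : E) : G)⁻¹ = x.1.1
          simp
        mul_smul := fun e f x => by
          apply Subtype.ext; apply Subtype.ext
          show ((e * f : E) : G) * x.1.1 * ((e * f : E) : G)⁻¹ = e * (f * x.1.1 * (f : G)⁻¹) * (e : G)⁻¹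
          push_cast; group }
    apply H5.ActionCount.dvd_card_of_forall_stabilizer_index (N := E)
    intro x
    have hst : Nat.card (MulAction.stabilizer E x) = Nat.card (centIn E x.1.1) := by
      apply Nat.card_congr
      exact {
        toFun := fun e => ⟨e.1.1, mem_centIn.mpr ⟨e.1.2, by
          have h5 : (e.1 : G) * x.1.1 * (e.1 : G)⁻¹ = x.1.1 := congrArg (fun y => y.1.1) e.2
          nth_rewrite 2 [← h5]; group⟩⟩
        invFun := fun e => ⟨⟨e.1, (mem_centIn.mp e.2).1⟩, by
          rw [MulAction.mem_stabilizer_iff]
          apply Subtype.ext; apply Subtype.ext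
          show (e : G) * x.1.1 * (e : G)⁻¹ = x.1.1
          rw [(mem_centIn.mp e.2).2]; group⟩
        left_inv := fun e => rfl
        right_inv := fun e => rfl }
    have h6 := (MulAction.stabilizer E x).card_mul_index
    rw [hE, hst] at h6
    have h7 : Nat.card (centIn E x.1.1) ∣ 2 ^ 3 := by
      refine ⟨(MulAction.stabilizer E x).index, ?_⟩
      rw [h6]; norm_num
    obtain ⟨k, hk, hk2⟩ := (Nat.dvd_prime_pow Nat.prime_two).mp h7
    have h8 : ¬ 4 ∣ Nat.card (centIn E x.1.1) := x.2
    have hk3 : k < 2 := by
      by_contra h
      apply h8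
      rw [hk2]
      calc 4 = 2 ^ 2 := by norm_num
        _ ∣ 2 ^ k := pow_dvd_pow 2 (by omega)
    rw [hk2] at h6
    interval_cases k
    · omega
    · omega

/-- The number of solutions of `x² = 1` is divisible by four. -/
theorem four_dvd_sq (E : Subgroup G) (hE : Nat.card E = 8) (hsq : ∀ e ∈ E, e * e = 1) :
    4 ∣ Nat.card {x : G // x * x = 1} := by
  classical
  have h1 : Nat.card {x : G // x * x = 1} = Nat.card E + Nat.card (Out E) := by
    rw [← Nat.card_sum]
    apply Nat.card_congr
    exact {
      toFun := fun x => if h : x.1 ∈ E then Sum.inl ⟨x.1, h⟩ else Sum.inr ⟨x.1, x.2, h⟩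
      invFun := fun x => Sum.elim (fun e => ⟨e.1, hsq e.1 e.2⟩) (fun y => ⟨y.1, y.2.1⟩) x
      left_inv := fun x => by
        by_cases h : x.1 ∈ E <;> simp [h]
      right_inv := fun x => by
        rcases x with x | x
        · simp
        · simp [x.2.2] }
  rw [h1, hE]
  exact dvd_add (by norm_num) (four_dvd_out E hE hsq)

end H5.RankThree
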