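import Mathlib.GroupTheory.Sylow
import Mathlib.GroupTheory.GroupAction.Quotient
import Mathlib.Tactic
import Cfsg.Agent.Lib.H5.Dihedral
import Cfsg.Agent.Lib.H5.PLocal
import Cfsg.Agent.Lib.H5.ActionCount
import Cfsg.Agent.Lib.H5.IndexTwo
import Cfsg.Agent.Lib.H5.RankThree

set_option autoImplicit false

/-! 2-groups with an elementary abelian subgroup of order 8: an almost central four-group. -/

namespace H5.RankThree2

open Subgroup H5.RankThree

variable {G : Type*} [Group G]

/-- In a finite 2-group with an elementary abelian subgroup of order 8 there are two distinct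
involutions `x`, `w` with `C(x) ≤ C(w)`, `w ∈ C(x)`, and `C(x)` of index at most 2. -/
theorem exists_almost_central [Finite G] (hS : IsPGroup 2 G) (E : Subgroup G)
    (hE : Nat.card E = 8) (hsq : ∀ e ∈ E, e * e = 1) :
    ∃ x w : G, orderOf x = 2 ∧ orderOf w = 2 ∧ x ≠ w ∧
      Subgroup.centralizer ({x} : Set G) ≤ Subgroup.centralizer ({w} : Set G) ∧
      w ∈ Subgroup.centralizer ({x} : Set G) ∧
      ((Subgroup.centralizer ({x} : Set G)).index = 1 ∨
        (Subgroup.centralizer ({x} : Set G)).index = 2) := by
  classical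
  have : Fact (Nat.Prime 2) := ⟨Nat.prime_two⟩
  have hnt : Nontrivial G := by
    by_contra h
    rw [not_nontrivial_iff_subsingleton] at h
    have := Nat.card_of_subsingleton (1 : E)
    omega
  have hc := hS.center_nontrivial
  -- central involution
  have hev : Even (Nat.card (Subgroup.center G)) := by
    have hcp : IsPGroup 2 (Subgroup.center G) := hS.to_subgroup _
    obtain ⟨k, hk⟩ := IsPGroup.iff_card.mp hcp
    rcases Nat.eq_zero_or_pos k with rfl | hk0
    · exfalso
      rw [pow_zero] at hk
      have := (Nat.card_eq_one_iff_unique.mp hk).1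
      exact not_subsingleton _ this
    · rw [hk]; exact Nat.even_pow.mpr ⟨even_two, hk0.ne'⟩
  obtain ⟨z, hz, hz2⟩ := H5.PLocal.exists_involution_mem _ hev
  have hzc : ∀ g : G, g * z = z * g := fun g => Subgroup.mem_center_iff.mp hz g
  have hzz := H5.Dihedral.mul_self hz2
  have hz1 := H5.Dihedral.ne_one hz2
  -- W = involutions ≠ z
  let W := {x : G // x * x = 1 ∧ x ≠ 1 ∧ x ≠ z}
  have hW : Nat.card {x : G // x * x = 1} = Nat.card W + 2 := by
    have h1 : Nat.card {x : G // x * x = 1} = ({x : G | x * x = 1} : Set G).ncard := by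
      rw [← Nat.card_coe_set_eq]; rfl
    have h2 : Nat.card W = ({x : G | x * x = 1 ∧ x ≠ 1 ∧ x ≠ z} : Set G).ncard := by
      rw [← Nat.card_coe_set_eq]; rfl
    have h3 : ({x : G | x * x = 1} : Set G) = insert 1 (insert z {x : G | x * x = 1 ∧ x ≠ 1 ∧ x ≠ z}) := by
      ext x
      simp only [Set.mem_ofPred_eq, Set.mem_insert_iff]
      constructor
      · intro h
        by_cases h1 : x = 1
        · left; exact h1
        · by_cases h2 : x = z
          · right; left; exact h2
          · right; right; exact ⟨h, h1, h2⟩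
      · rintro (rfl | rfl | h)
        · simp
        · exact hzz
        · exact h.1
    rw [h1, h2, h3, Set.ncard_insert_of_notMem, Set.ncard_insert_of_notMem]
    · simp
    · simp only [Set.mem_insert_iff, Set.mem_ofPred_eq, not_or]
      exact ⟨fun h => hz1 h.symm, by simp⟩
  have h4 := four_dvd_sq E hE hsq
  have hnot : ¬ 4 ∣ Nat.card W := by omega
  -- conjugation action on W
  let act : MulAction G W :=
    { smul := fun g x => ⟨g * x.1 * g⁻¹, by
          calc g * x.1 * g⁻¹ * (g * x.1 * g⁻¹) = g * (x.1 * x.1) * g⁻¹ := by group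
            _ = 1 := by rw [x.2.1]; group, by
          intro h
          apply x.2.2.1
          have : x.1 = g⁻¹ * (g * x.1 * g⁻¹) * g := by group
          rw [this, h]; group, by
          intro h
          apply x.2.2.2
          have : x.1 = g⁻¹ * (g * x.1 * g⁻¹) * g := by group
          rw [this, h, mul_assoc, ← hzc]; group⟩
      one_smul := fun x => by
        apply Subtype.ext
        show 1 * x.1 * 1⁻¹ = x.1
        simp
      mul_smul := fun e f x => by
        apply Subtype.ext
        show (e * f) * x.1 * (e * f)⁻¹ = e * (f * x.1 * f⁻¹) * e⁻¹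
        group }
  have hex : ∃ x : W, ¬ 4 ∣ (MulAction.stabilizer G x).index := by
    by_contra hcon
    push Not at hcon
    exact hnot (H5.ActionCount.dvd_card_of_forall_stabilizer_index (N := G) 4 hcon)
  obtain ⟨x, hx⟩ := hex
  have hst : MulAction.stabilizer G x = Subgroup.centralizer ({x.1} : Set G) := by
    ext g
    rw [MulAction.mem_stabilizer_iff, mem_centralizer_singleton_iff]
    constructor
    · intro h
      have h5 : g * x.1 * g⁻¹ = x.1 := congrArg Subtype.val h
      nth_rewrite 2 [← h5]; group
    · intro h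
      apply Subtype.ext
      show g * x.1 * g⁻¹ = x.1
      rw [h]; group
  rw [hst] at hx
  have hx2 : orderOf x.1 = 2 := H5.Dihedral.orderOf_eq_two x.2.1 x.2.2.1
  obtain ⟨n, hn⟩ := IsPGroup.iff_card.mp hS
  have hidx : (Subgroup.centralizer ({x.1} : Set G)).index = 1 ∨
      (Subgroup.centralizer ({x.1} : Set G)).index = 2 := by
    have h5 : (Subgroup.centralizer ({x.1} : Set G)).index ∣ 2 ^ n := by
      rw [← hn]; exact Subgroup.index_dvd_card _
    obtain ⟨k, hk, hk2⟩ := (Nat.dvd_prime_pow Nat.prime_two).mp h5
    rw [hk2] at hx ⊢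
    have : k < 2 := by
      by_contra h
      apply hx
      calc 4 = 2 ^ 2 := by norm_num
        _ ∣ 2 ^ k := pow_dvd_pow 2 (by omega)
    interval_cases k
    · left; norm_num
    · right; norm_num
  refine ⟨x.1, z, hx2, hz2, x.2.2.2, ?_, ?_, hidx⟩
  · intro g _
    rw [mem_centralizer_singleton_iff]; exact hzc g
  · rw [mem_centralizer_singleton_iff]; exact (hzc x.1).symm

/-- A finite group of exponent 2 with more than four elements has a subgroup of order 8. -/
theorem exists_order_eight [Finite G] (A : Subgroup G) (hA : ∀ a ∈ A, a * a = 1)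
    (hcard : 4 < Nat.card A) : ∃ E : Subgroup G, E ≤ A ∧ Nat.card E = 8 ∧ ∀ e ∈ E, e ^ 2 = 1 := by
  have : Fact (Nat.Prime 2) := ⟨Nat.prime_two⟩
  have hp : IsPGroup 2 A := by
    intro a
    refine ⟨1, ?_⟩
    rw [pow_one, pow_two]
    exact Subtype.ext (hA a a.2)
  obtain ⟨k, hk⟩ := IsPGroup.iff_card.mp hp
  have hk3 : 3 ≤ k := by
    by_contra h
    have : k ≤ 2 := by omega
    have := Nat.pow_le_pow_right (show 0 < 2 by norm_num) this
    omega
  obtain ⟨K, hK⟩ := Sylow.exists_subgroup_card_pow_prime (G := A) 2 (n := 3)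
    (by rw [hk]; exact pow_dvd_pow 2 hk3)
  refine ⟨K.map A.subtype, map_subtype_le _, ?_, ?_⟩
  · rw [← Nat.card_congr (K.equivMapOfInjective _ A.subtype_injective).toEquiv, hK]; norm_num
  · intro e he
    rw [pow_two]
    exact hA e (map_subtype_le _ he)

/-- Three pairwise commuting involutions, independent: they generate a group of exponent two with
more than four elements. -/
theorem exists_order_eight_of_three [Finite G] (C : Subgroup G) (x w e : G) (hx : orderOf x = 2)
    (hw : orderOf w = 2) (he : orderOf e = 2) (hxw : x ≠ w) (hcxw : x * w = w * x)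
    (hcxe : x * e = e * x) (hcwe : w * e = e * w) (hex : e ≠ x) (hew : e ≠ w) (hexw : e ≠ x * w)
    (hxC : x ∈ C) (hwC : w ∈ C) (heC : e ∈ C) :
    ∃ E : Subgroup G, E ≤ C ∧ Nat.card E = 8 ∧ ∀ e ∈ E, e ^ 2 = 1 := by
  classical
  set T : Set G := {x, w, e} with hT
  set A := Subgroup.closure T with hA
  have hxx := H5.Dihedral.mul_self hx
  have hww := H5.Dihedral.mul_self hw
  have hee := H5.Dihedral.mul_self he
  have hxT : x ∈ T := by simp [hT]
  have hwT : w ∈ T := by simp [hT]
  have heT : e ∈ T := by simp [hT]
  have hTcomm : ∀ a ∈ T, ∀ b ∈ T, a * b = b * a := by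
    intro a ha b hb
    simp only [hT, Set.mem_insert_iff, Set.mem_singleton_iff] at ha hb
    rcases ha with rfl | rfl | rfl <;> rcases hb with rfl | rfl | rfl <;>
      first | rfl | assumption | (symm; assumption)
  have hTsq : ∀ a ∈ T, a * a = 1 := by
    intro a ha
    simp only [hT, Set.mem_insert_iff, Set.mem_singleton_iff] at ha
    rcases ha with rfl | rfl | rfl <;> assumption
  have hcomm1 : ∀ a ∈ A, ∀ b ∈ T, a * b = b * a := by
    intro a ha b hb
    induction ha using Subgroup.closure_induction with
    | mem a ha => exact hTcomm a ha b hb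
    | one => simp
    | mul a c _ _ iha ihc => rw [mul_assoc, ihc, ← mul_assoc, iha, mul_assoc]
    | inv a _ iha => exact (Commute.inv_left (show Commute a b from iha))
  have hAcomm : ∀ a ∈ A, ∀ b ∈ A, a * b = b * a := by
    intro a ha b hb
    induction hb using Subgroup.closure_induction with
    | mem b hb => exact hcomm1 a ha b hb
    | one => simp
    | mul b c _ _ ihb ihc => rw [← mul_assoc, ihb, mul_assoc, ihc, ← mul_assoc]
    | inv b _ ihb => exact (Commute.inv_right (show Commute a b from ihb))
  have hAsq : ∀ a ∈ A, a * a = 1 := by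
    intro a ha
    induction ha using Subgroup.closure_induction with
    | mem a ha => exact hTsq a ha
    | one => simp
    | mul a c ha hc iha ihc =>
      have := hAcomm a ha c hc
      calc a * c * (a * c) = a * (c * a) * c := by group
        _ = a * (a * c) * c := by rw [this]
        _ = (a * a) * (c * c) := by group
        _ = 1 := by rw [iha, ihc, mul_one]
    | inv a _ iha => rw [← mul_inv_rev, iha, inv_one]
  have hAC : A ≤ C := by
    rw [hA, closure_le]
    intro a ha
    simp only [hT, Set.mem_insert_iff, Set.mem_singleton_iff] at ha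
    rcases ha with rfl | rfl | rfl <;> assumption
  have hcard : 4 < Nat.card A := by
    have hsub : (({1, x, w, x * w, e} : Finset G) : Set G) ⊆ (A : Set G) := by
      intro a ha
      simp only [Finset.coe_insert, Finset.coe_singleton, Set.mem_insert_iff, Set.mem_singleton_iff] at ha
      rcases ha with rfl | rfl | rfl | rfl | rfl
      · exact A.one_mem
      · exact subset_closure hxT
      · exact subset_closure hwT
      · exact A.mul_mem (subset_closure hxT) (subset_closure hwT)
      · exact subset_closure heT
    have h1 : (({1, x, w, x * w, e} : Finset G) : Set G).ncard ≤ (A : Set G).ncard :=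
      Set.ncard_le_ncard hsub (Set.toFinite _)
    rw [Set.ncard_coe_finset] at h1
    have h2 : ({1, x, w, x * w, e} : Finset G).card = 5 := by
      have hx1 := H5.Dihedral.ne_one hx
      have hw1 := H5.Dihedral.ne_one hw
      have he1 := H5.Dihedral.ne_one he
      have hxw1 : x * w ≠ 1 := by
        intro h; apply hxw
        have := eq_inv_of_mul_eq_one_left h
        rw [this]; exact inv_eq_of_mul_eq_one_left hww
      have hxwx : x * w ≠ x := by
        intro h; apply hw1; exact mul_left_cancel (h.trans (mul_one x).symm)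
      have hxww : x * w ≠ w := by
        intro h; apply hx1; exact mul_right_cancel (h.trans (one_mul w).symm)
      rw [Finset.card_insert_of_notMem, Finset.card_insert_of_notMem, Finset.card_insert_of_notMem,
        Finset.card_insert_of_notMem, Finset.card_singleton]
      · simp only [Finset.mem_singleton]; exact hexw.symm
      · simp only [Finset.mem_insert, Finset.mem_singleton, not_or]
        exact ⟨hxww.symm, hew.symm⟩
      · simp only [Finset.mem_insert, Finset.mem_singleton, not_or]
        exact ⟨hxw, hxwx.symm, hex.symm⟩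
      · simp only [Finset.mem_insert, Finset.mem_singleton, not_or]
        exact ⟨hx1.symm, hw1.symm, hxw1.symm, he1.symm⟩
    rw [h2] at h1
    have h3 : (A : Set G).ncard = Nat.card A := by rw [← Nat.card_coe_set_eq]; rfl
    omega
  obtain ⟨E, hE, hE2, hE3⟩ := exists_order_eight A hAsq hcard
  exact ⟨E, hE.trans hAC, hE2, hE3⟩

theorem centralizer_has_order_eight [Finite G] (hno : ∀ H : Subgroup G, H.index ≠ 2)
    (hrank : ∃ E : Subgroup G, Nat.card E = 8 ∧ ∀ e ∈ E, e ^ 2 = 1) (y : G) (hy : orderOf y = 2) :
    ∃ E : Subgroup G, E ≤ Subgroup.centralizer ({y} : Set G) ∧ Nat.card E = 8 ∧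
      ∀ e ∈ E, e ^ 2 = 1 := by
  classical
  have : Fact (Nat.Prime 2) := ⟨Nat.prime_two⟩
  obtain ⟨E, hE, hsq⟩ := hrank
  have hEp : IsPGroup 2 E := IsPGroup.of_card (n := 3) (by rw [hE]; norm_num)
  obtain ⟨S, hES⟩ := hEp.exists_le_sylow
  -- work in S
  set E' : Subgroup S := E.subgroupOf S with hE'
  have hE'c : Nat.card E' = 8 := by
    rw [← hE]; exact Nat.card_congr (subgroupOfEquivOfLe hES).toEquiv
  have hE'sq : ∀ e ∈ E', e * e = 1 := by
    intro e he
    apply Subtype.ext
    have := hsq e (mem_subgroupOf.mp he)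
    rw [pow_two] at this
    exact this
  obtain ⟨x, w, hx, hw, hxw, hle, hwx, hidx⟩ := exists_almost_central (G := S) S.2 E' hE'c hE'sq
  set M' : Subgroup S := Subgroup.centralizer ({x} : Set S) with hM'
  set M : Subgroup G := M'.map (S : Subgroup G).subtype with hM
  have hMx : ∀ m ∈ M, m * (x : G) = x * m := by
    rintro _ ⟨m, hm, rfl⟩
    have := mem_centralizer_singleton_iff.mp hm
    exact congrArg Subtype.val this
  have hMw : ∀ m ∈ M, m * (w : G) = w * m := by
    rintro _ ⟨m, hm, rfl⟩
    have := mem_centralizer_singleton_iff.mp (hle hm)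
    exact congrArg Subtype.val this
  have hxM : (x : G) ∈ M := ⟨x, by rw [SetLike.mem_coe, hM', mem_centralizer_singleton_iff], rfl⟩
  have hwM : (w : G) ∈ M := ⟨w, hwx, rfl⟩
  have hxo : orderOf (x : G) = 2 := (Subgroup.orderOf_coe x).trans hx
  have hwo : orderOf (w : G) = 2 := (Subgroup.orderOf_coe w).trans hw
  have hxw' : (x : G) ≠ w := fun h => hxw (Subtype.ext h)
  have hxwc : (x : G) * w = w * x := (hMw x hxM)
  -- y is conjugate into M
  have hconj : ∃ g : G, g * y * g⁻¹ ∈ M := by
    by_contra hcon
    push Not at hcon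
    rcases hidx with h1 | h2
    · obtain ⟨g, hg⟩ := H5.PLocal.exists_conj_mem_sylow S hy
      apply hcon g
      rw [index_eq_one] at h1
      exact ⟨⟨_, hg⟩, by rw [h1]; exact mem_top _, rfl⟩
    · have hodd : Odd (S : Subgroup G).index := by
        rw [← Nat.not_even_iff_odd, even_iff_two_dvd]; exact S.not_dvd_index
      have hMidx : M.index = 2 * (S : Subgroup G).index := by
        rw [hM, index_map, (S : Subgroup G).ker_subtype, sup_bot_eq, range_subtype, h2]
      obtain ⟨H, -, hH, -⟩ := H5.IndexTwo.exists_index_two_of_not_conj M _ hodd hMidx y hy hcon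
      exact hno H hH
  obtain ⟨g, hg⟩ := hconj
  -- it suffices to treat y' = g y g⁻¹
  suffices h : ∃ F : Subgroup G, F ≤ Subgroup.centralizer ({g * y * g⁻¹} : Set G) ∧ Nat.card F = 8 ∧
      ∀ e ∈ F, e ^ 2 = 1 by
    obtain ⟨F, hF1, hF2, hF3⟩ := h
    refine ⟨F.map (MulAut.conj g⁻¹).toMonoidHom, ?_, ?_, ?_⟩
    · rintro _ ⟨f, hf, rfl⟩
      have h1 := mem_centralizer_singleton_iff.mp (hF1 hf)
      rw [mem_centralizer_singleton_iff]
      simp only [MulEquiv.coe_toMonoidHom, MulAut.conj_apply, inv_inv]
      calc g⁻¹ * f * g * y = g⁻¹ * (f * (g * y * g⁻¹)) * g := by group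
        _ = g⁻¹ * (g * y * g⁻¹ * f) * g := by rw [h1]
        _ = y * (g⁻¹ * f * g) := by group
    · rw [← hF2]
      exact (Nat.card_congr (F.equivMapOfInjective _ (MulAut.conj g⁻¹).injective).toEquiv).symm
    · rintro _ ⟨f, hf, rfl⟩
      rw [← map_pow, hF3 f hf, map_one]
  set y' := g * y * g⁻¹ with hy'
  have hy'o : orderOf y' = 2 := by rw [hy', H5.Dihedral.orderOf_conj]; exact hy
  by_cases hyV : y' = x ∨ y' = w ∨ y' = x * w
  · -- y' ∈ V ≤ Z(M): M centralizes y'
    have hMy : ∀ m ∈ M, m * y' = y' * m := by
      intro m hm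
      rcases hyV with h | h | h
      · rw [h]; exact hMx m hm
      · rw [h]; exact hMw m hm
      · rw [h, ← mul_assoc, hMx m hm, mul_assoc, hMw m hm, mul_assoc]
    have hMC : M ≤ Subgroup.centralizer ({y'} : Set G) := by
      intro m hm
      rw [mem_centralizer_singleton_iff]; exact hMy m hm
    -- an element e ∈ E ∩ M outside V
    have hexe : ∃ e ∈ E, e ∈ M ∧ e ≠ 1 ∧ e ≠ x ∧ e ≠ w ∧ e ≠ x * w := by
      by_contra hcon
      push Not at hcon
      have hEcomm : ∀ a ∈ E, ∀ b ∈ E, a * b = b * a := by
        intro a ha b hb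
        have h1 := hsq _ (E.mul_mem ha hb)
        have h2 := hsq a ha
        have h3 := hsq b hb
        rw [pow_two] at h1 h2 h3
        have h4 : (a * b)⁻¹ = a * b := inv_eq_of_mul_eq_one_left h1
        rw [mul_inv_rev, inv_eq_of_mul_eq_one_left h2, inv_eq_of_mul_eq_one_left h3] at h4
        exact h4.symm
      -- card of E ⊓ M at least 4
      have hrel : M'.relIndex E' ≤ 2 := by
        have h1 : M'.relIndex E' ≤ M'.index := by
          rw [← relIndex_top_right M']
          apply relIndex_le_of_le_right le_top
          exact FiniteIndex.index_ne_zero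
        rcases hidx with h | h <;> omega
      have hc1 : Nat.card (M' ⊓ E' : Subgroup S) * M'.relIndex E' = 8 := by
        rw [← hE'c, ← card_mul_index (M'.subgroupOf E')]
        congr 1
        rw [← subgroupOf_map_subtype]
        exact (Nat.card_congr ((M'.subgroupOf E').equivMapOfInjective _ E'.subtype_injective).toEquiv).symm
      have hc4 : 4 ≤ Nat.card (M' ⊓ E' : Subgroup S) := by
        have h2 : 0 < M'.relIndex E' := by
          rcases Nat.eq_zero_or_pos (M'.relIndex E') with h | h
          · rw [h] at hc1; omega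
          · exact h
        nlinarith
      -- but M' ⊓ E' ⊆ V
      have hsub : ((M' ⊓ E' : Subgroup S) : Set S) ⊆ (({1, x, w, x * w} : Finset S) : Set S) := by
        rintro e ⟨he1, he2⟩
        simp only [Finset.coe_insert, Finset.coe_singleton, Set.mem_insert_iff, Set.mem_singleton_iff]
        by_cases h1 : e = 1
        · left; exact h1
        by_cases h2 : e = x
        · right; left; exact h2
        by_cases h3 : e = w
        · right; right; left; exact h3
        right; right; right
        apply Subtype.ext
        exact hcon e (mem_subgroupOf.mp he2) ⟨e, he1, rfl⟩ (fun h => h1 (Subtype.ext h))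
          (fun h => h2 (Subtype.ext h)) (fun h => h3 (Subtype.ext h))
      have hle4 : (({1, x, w, x * w} : Finset S) : Set S).ncard ≤ 4 := by
        rw [Set.ncard_coe_finset]
        exact Finset.card_le_four
      have hcardset : ((M' ⊓ E' : Subgroup S) : Set S).ncard = Nat.card (M' ⊓ E' : Subgroup S) := by
        rw [← Nat.card_coe_set_eq]; rfl
      have heq : ((M' ⊓ E' : Subgroup S) : Set S) = (({1, x, w, x * w} : Finset S) : Set S) :=
        Set.eq_of_subset_of_ncard_le hsub (by omega) (Set.toFinite _)
      have hxE : x ∈ (M' ⊓ E' : Subgroup S) := by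
        have : x ∈ (({1, x, w, x * w} : Finset S) : Set S) := by simp
        rw [← heq] at this
        exact this
      -- E centralizes x
      have hEM : E' ≤ M' := by
        intro e he
        rw [hM', mem_centralizer_singleton_iff]
        apply Subtype.ext
        exact hEcomm e (mem_subgroupOf.mp he) x (mem_subgroupOf.mp hxE.2)
      rw [inf_eq_right.mpr hEM, hE'c] at hcardset
      rw [inf_eq_right.mpr hEM] at heq
      rw [heq] at hcardset
      omega
    obtain ⟨e, heE, heM, he1, hex, hew, hexw⟩ := hexe
    have heo : orderOf e = 2 := by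
      apply H5.Dihedral.orderOf_eq_two _ he1
      have := hsq e heE
      rwa [pow_two] at this
    exact exists_order_eight_of_three _ x w e hxo hwo heo hxw' hxwc (hMx e heM).symm (hMw e heM).symm
      hex hew hexw (hMC hxM) (hMC hwM) (hMC heM)
  · push Not at hyV
    apply exists_order_eight_of_three _ (x : G) (w : G) y' hxo hwo hy'o hxw' hxwc (hMx y' hg).symm
      (hMw y' hg).symm hyV.1 hyV.2.1 hyV.2.2
    · rw [mem_centralizer_singleton_iff]; exact (hMx y' hg).symm
    · rw [mem_centralizer_singleton_iff]; exact (hMw y' hg).symm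
    · rw [mem_centralizer_singleton_iff]

end H5.RankThree2
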